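import Cfsg.Prelude.Def_Sz
import Cfsg.Agent.Lib.CIT.Basic
import Cfsg.Agent.Lib.CharTheory.Burnside

/-!
Groups with at most one composite element order.
-/

set_option autoImplicit false

open Cfsg

namespace CfsgLib.OneComposite

/-- At most one element order is neither `1` nor a prime. -/
def OC (G : Type*) [Group G] : Prop :=
  {n : ℕ | n ∈ Set.range (orderOf : G → ℕ) ∧ 1 < n ∧ ¬ n.Prime}.Subsingleton

/-- The groups in the conclusion of the classification. -/
def Outcome (G : Type*) [Group G] : Prop :=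
    (∃ (F : Type) (_ : Field F) (_ : Fintype F), (Fintype.card F = 5 ∨ Fintype.card F = 7 ∨ Fintype.card F = 8 ∨ Fintype.card F = 9 ∨
        Fintype.card F = 11 ∨ Fintype.card F = 13 ∨ Fintype.card F = 16) ∧ Nonempty (G ≃* Matrix.ProjectiveSpecialLinearGroup (Fin 2) F)) ∨
    (∃ (F : Type) (_ : Field F) (_ : Fintype F), Fintype.card F = 4 ∧ Nonempty (G ≃* Matrix.ProjectiveSpecialLinearGroup (Fin 3) F)) ∨
    (∃ (F : Type) (_ : Field F) (_ : Fintype F), Fintype.card F = 8 ∧ Nonempty (G ≃* ↥(Cfsg.Lie.Sz F 4))) ∨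
    (∃ (F : Type) (_ : Field F) (_ : Fintype F), ∃ n r s : ℕ, r.Prime ∧ s.Prime ∧ 3 ^ n - 1 = 2 * r ∧ 3 ^ n + 1 = 4 * s ∧
        Fintype.card F = 3 ^ n ∧ Nonempty (G ≃* Matrix.ProjectiveSpecialLinearGroup (Fin 2) F)) ∨
    (∃ (F : Type) (_ : Field F) (_ : Fintype F), ∃ n r : ℕ, (2 ^ n - 1).Prime ∧ r.Prime ∧ 2 ^ n + 1 = 3 * r ∧
        Fintype.card F = 2 ^ n ∧ Nonempty (G ≃* Matrix.ProjectiveSpecialLinearGroup (Fin 2) F))

/-- Every element order is `1`, a prime, or `2 p`. -/
def Two (G : Type*) [Group G] (p : ℕ) : Prop :=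
  p.Prime ∧ p ≠ 2 ∧ ∀ g : G, orderOf g = 1 ∨ (orderOf g).Prime ∨ orderOf g = 2 * p

variable {G : Type*} [Group G] [Finite G]

theorem OC.of_equiv {H : Type*} [Group H] (h : OC G) (e : G ≃* H) : OC H := by
  rintro a ⟨⟨x, rfl⟩, hxa⟩ b ⟨⟨y, rfl⟩, hyb⟩
  exact h ⟨⟨e.symm x, MulEquiv.orderOf_eq e.symm x⟩, hxa⟩ ⟨⟨e.symm y, MulEquiv.orderOf_eq e.symm y⟩, hyb⟩

/-- Every divisor of an element order is an element order. -/
theorem exists_orderOf_of_dvd {g : G} {d : ℕ} (hd : d ∣ orderOf g) : ∃ x : G, orderOf x = d := by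
  have h0 : d ≠ 0 := fun e => (orderOf_pos g).ne' (by subst e; exact zero_dvd_iff.1 hd)
  refine ⟨g ^ (orderOf g / d), ?_⟩
  have hdd : orderOf g / d ∣ orderOf g := Nat.div_dvd_of_dvd hd
  have hne : orderOf g / d ≠ 0 := fun e => (orderOf_pos g).ne' (by
    rw [← Nat.div_mul_cancel hd, e, Nat.zero_mul])
  rw [orderOf_pow_of_dvd hne hdd, Nat.div_div_self hd (orderOf_pos g).ne']

theorem OC.eq (h : OC G) {a b : ℕ} {g k : G} (ha : a ∣ orderOf g) (hb : b ∣ orderOf k)
    (ha1 : 1 < a) (hap : ¬ a.Prime) (hb1 : 1 < b) (hbp : ¬ b.Prime) : a = b :=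
  h ⟨exists_orderOf_of_dvd ha, ha1, hap⟩ ⟨exists_orderOf_of_dvd hb, hb1, hbp⟩

/-- Either involution centralisers are 2-groups, or the composite order is twice an odd prime. -/
theorem OC.cit_or_two (h : OC G) : CIT.IsCIT G ∨
    ∃ p, Two G p ∧ ∃ t y : G, orderOf t = 2 ∧ orderOf y = p ∧ y * t = t * y := by
  classical
  by_cases hc : CIT.IsCIT G
  · exact Or.inl hc
  rw [CIT.IsCIT] at hc
  push Not at hc
  obtain ⟨t, ht, hnp⟩ := hc
  obtain ⟨p, hp, hpd, hp2⟩ : ∃ p, p.Prime ∧ p ∣ Nat.card (Subgroup.centralizer ({t} : Set G)) ∧ p ≠ 2 := by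
    by_contra hall
    push Not at hall
    exact hnp (IsPGroup.of_card (n := (Nat.card (Subgroup.centralizer ({t} : Set G))).primeFactorsList.length)
      (Nat.eq_prime_pow_of_unique_prime_dvd Nat.card_pos.ne' fun {q} hq hqd => hall q hq hqd))
  haveI : Fact p.Prime := ⟨hp⟩
  obtain ⟨y, hy⟩ := exists_prime_orderOf_dvd_card' (G := Subgroup.centralizer ({t} : Set G)) p hpd
  have hyt : (y : G) * t = t * y := Subgroup.mem_centralizer_singleton_iff.1 y.2
  rw [← Subgroup.orderOf_coe] at hy
  have hord : orderOf ((y : G) * t) = 2 * p := by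
    rw [(show Commute (y : G) t from hyt).orderOf_mul_eq_mul_orderOf_of_coprime
      (by rw [hy, ht]; exact (Nat.coprime_primes hp Nat.prime_two).2 hp2), hy, ht, mul_comm]
  refine Or.inr ⟨p, ⟨hp, hp2, fun g => ?_⟩, t, y, ht, hy, hyt⟩
  by_cases h1 : orderOf g = 1
  · exact Or.inl h1
  by_cases h2 : (orderOf g).Prime
  · exact Or.inr (Or.inl h2)
  · refine Or.inr (Or.inr ?_)
    have hpos := orderOf_pos g
    refine h.eq (g := g) (k := (y : G) * t) dvd_rfl hord.symm.dvd (by omega) h2 ?_ ?_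
    · have := hp.two_le; omega
    · exact Nat.not_prime_mul (by norm_num) hp.one_lt.ne'

namespace Two

variable {p : ℕ} (hT : Two G p)
include hT

omit [Finite G] in
theorem prime : p.Prime := hT.1

omit [Finite G] in
theorem ne_two : p ≠ 2 := hT.2.1

omit [Finite G] in
theorem odd : Odd p := hT.1.odd_of_ne_two hT.2.1

omit [Finite G] in
/-- The only product of two primes dividing an element order is `2 p`. -/
theorem of_dvd {g : G} {a b : ℕ} (ha : a.Prime) (hb : b.Prime) (h : a * b ∣ orderOf g) :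
    (a = 2 ∧ b = p) ∨ (a = p ∧ b = 2) := by
  rcases hT.2.2 g with h1 | h1 | h1
  · rw [h1, Nat.dvd_one] at h
    exact absurd (Nat.eq_one_of_mul_eq_one_right h) ha.one_lt.ne'
  · rcases (Nat.dvd_prime h1).1 h with e | e
    · exact absurd (Nat.eq_one_of_mul_eq_one_right e) ha.one_lt.ne'
    · rw [← e] at h1
      exact absurd h1 (Nat.not_prime_mul ha.one_lt.ne' hb.one_lt.ne')
  · rw [h1] at h
    have hle : a * b = 2 * p := by
      rcases (ha.dvd_mul).1 ((dvd_mul_right a b).trans h) with e | e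
      · obtain rfl := (Nat.prime_dvd_prime_iff_eq ha Nat.prime_two).1 e
        have := Nat.dvd_of_mul_dvd_mul_left (by norm_num) h
        rw [(Nat.prime_dvd_prime_iff_eq hb hT.1).1 this]
      · obtain rfl := (Nat.prime_dvd_prime_iff_eq ha hT.1).1 e
        have := Nat.dvd_of_mul_dvd_mul_left ha.pos (mul_comm 2 a ▸ h)
        rw [(Nat.prime_dvd_prime_iff_eq hb Nat.prime_two).1 this, mul_comm]
    by_cases ha2 : a = 2
    · subst ha2
      exact Or.inl ⟨rfl, Nat.eq_of_mul_eq_mul_left (by norm_num) hle⟩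
    · have hb2 : b = 2 := by
        have h2 : 2 ∣ a * b := hle ▸ dvd_mul_right 2 p
        rcases Nat.prime_two.dvd_mul.1 h2 with e | e
        · exact absurd ((Nat.prime_dvd_prime_iff_eq Nat.prime_two ha).1 e).symm ha2
        · exact ((Nat.prime_dvd_prime_iff_eq Nat.prime_two hb).1 e).symm
      subst hb2
      exact Or.inr ⟨Nat.eq_of_mul_eq_mul_right (by norm_num) (hle.trans (mul_comm 2 p)), rfl⟩

omit [Finite G] in
/-- Elements of 2-power order square to the identity. -/
theorem sq_eq_one {g : G} {k : ℕ} (hg : orderOf g = 2 ^ k) : g ^ 2 = 1 := by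
  refine orderOf_dvd_iff_pow_eq_one.1 ?_
  rcases Nat.lt_or_ge k 2 with hk | hk
  · rw [hg]; exact (pow_dvd_pow 2 (show k ≤ 1 by omega)).trans (pow_one 2).dvd
  · exfalso
    rcases hT.of_dvd (g := g) Nat.prime_two Nat.prime_two (by rw [hg]; exact pow_dvd_pow 2 hk) with e | e
    · exact hT.ne_two e.2.symm
    · exact hT.ne_two e.1.symm

omit [Finite G] in
/-- A nontrivial element of odd order has prime order. -/
theorem prime_of_odd {g : G} (hg : Odd (orderOf g)) (h1 : g ≠ 1) : (orderOf g).Prime := by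
  rcases hT.2.2 g with h | h | h
  · exact absurd (orderOf_eq_one_iff.1 h) h1
  · exact h
  · exact absurd (h ▸ hg) (Nat.not_odd_iff_even.2 ⟨p, by ring⟩)

omit [Finite G] in
/-- Commuting elements of different prime orders have orders `2` and `p`. -/
theorem commute_orders {a b : G} (ha : (orderOf a).Prime) (hb : (orderOf b).Prime) (hne : orderOf a ≠ orderOf b)
    (hab : a * b = b * a) : (orderOf a = 2 ∧ orderOf b = p) ∨ (orderOf a = p ∧ orderOf b = 2) :=
  hT.of_dvd ha hb ((show Commute a b from hab).orderOf_mul_eq_mul_orderOf_of_coprime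
    ((Nat.coprime_primes ha hb).2 hne)).symm.dvd

omit [Finite G] in
/-- An element of prime order commuting with an involution has order `2` or `p`. -/
theorem order_of_commute_involution {a t : G} (ha : (orderOf a).Prime) (ht : orderOf t = 2)
    (hat : a * t = t * a) : orderOf a = 2 ∨ orderOf a = p := by
  by_cases h : orderOf a = 2
  · exact Or.inl h
  · rcases hT.commute_orders ha (ht ▸ Nat.prime_two) (by rwa [ht]) hat with e | e
    · exact Or.inl e.1
    · exact Or.inr e.1

/-- A centraliser of an element of order `2` or `p` has only the primes `2` and `p`. -/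
theorem card_dvd_centralizer {a : G} (ha : orderOf a = 2 ∨ orderOf a = p) {H : Subgroup G}
    (hH : ∀ h ∈ H, h * a = a * h) : ∃ i j, Nat.card H ∣ 2 ^ i * p ^ j := by
  classical
  refine ⟨Nat.card H, Nat.card H, ?_⟩
  have h0 : Nat.card H ≠ 0 := Nat.card_pos.ne'
  rw [← Nat.factorization_le_iff_dvd h0 (mul_ne_zero (pow_ne_zero _ (by norm_num))
    (pow_ne_zero _ hT.1.ne_zero))]
  intro q
  by_cases hq : q.Prime ∧ q ∣ Nat.card H
  · haveI : Fact q.Prime := ⟨hq.1⟩
    obtain ⟨y, hy⟩ := exists_prime_orderOf_dvd_card' (G := H) q hq.2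
    rw [← Subgroup.orderOf_coe] at hy
    have hq2 : q = 2 ∨ q = p := by
      by_cases he : q = orderOf a
      · rwa [he]
      · have hap : (orderOf a).Prime := by
          rcases ha with e | e <;> rw [e]
          · exact Nat.prime_two
          · exact hT.1
        rcases hT.commute_orders (hy ▸ hq.1) hap (by rwa [hy]) (hH _ y.2) with e | e
        · exact Or.inl (hy.symm.trans e.1)
        · exact Or.inr (hy.symm.trans e.1)
    have hlt : (Nat.card H).factorization q ≤ Nat.card H := (Nat.factorization_lt q h0).le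
    rw [Nat.factorization_mul (pow_ne_zero _ (by norm_num)) (pow_ne_zero _ hT.1.ne_zero),
      Nat.prime_two.factorization_pow, hT.1.factorization_pow, Finsupp.add_apply]
    rcases hq2 with rfl | rfl
    · rw [Finsupp.single_eq_same]; omega
    · rw [Finsupp.single_eq_same]; omega
  · have : (Nat.card H).factorization q = 0 := by
      rcases not_and_or.1 hq with h | h
      · exact Nat.factorization_eq_zero_of_not_prime _ h
      · exact Nat.factorization_eq_zero_of_not_dvd h
    omega

/-- A subgroup centralising an element of order `2` or `p` is solvable. -/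
theorem solvable_of_centralizing {a : G} (ha : orderOf a = 2 ∨ orderOf a = p) {H : Subgroup G}
    (hH : ∀ h ∈ H, h * a = a * h) : Group.IsSolvable H := by
  obtain ⟨i, j, hd⟩ := hT.card_dvd_centralizer ha hH
  exact CfsgLib.CharTheory.isSolvable_of_card_dvd_pow_mul_pow 2 p i j Nat.prime_two hT.1 hd

theorem solvable_centralizer {a : G} (ha : orderOf a = 2 ∨ orderOf a = p) :
    Group.IsSolvable (Subgroup.centralizer ({a} : Set G)) :=
  hT.solvable_of_centralizing ha fun _ h => Subgroup.mem_centralizer_singleton_iff.1 h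

end Two

end CfsgLib.OneComposite
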