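import Cfsg.Agent.Lib.OneComposite.Points
import Cfsg.Agent.Lib.OneComposite.Fusion

/-!
No simple group has a Frobenius group of order `q p` on its Sylow 2-subgroup.
-/

set_option autoImplicit false
set_option linter.style.haveILetI false

open Cfsg
open scoped Pointwise commutatorElement

namespace CfsgLib.OneComposite

namespace Ctx

variable {G : Type*} [Group G] [Finite G] {p : ℕ} (c : Ctx G p) [IsSimpleGroup G] (d : c.FixData)

theorem exists_pt_ne : ∃ x : G ⧸ c.M, x ≠ c.pt := by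
  obtain ⟨g, hg⟩ : ∃ g : G, g ∉ c.M := by
    by_contra h
    push Not at h
    exact c.se.1 ((Subgroup.eq_top_iff' _).2 h)
  exact ⟨QuotientGroup.mk g, fun h => hg (by simpa [pt, QuotientGroup.eq] using h)⟩

include d

theorem card_M_of_fix : Nat.card c.M = (d.q + 1) * (d.q * p) := by
  have hker : c.act.ker = (c.E : Subgroup G).subgroupOf c.M := by
    refine le_antisymm (fun n hn => ?_) fun n hn => MonoidHom.mem_ker.2 ((c.act_eq_one_iff n).2 fun e he => c.comm hn he)
    have := c.act_ker_le (MonoidHom.mem_ker.1 hn)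
    rw [d.W_bot, sup_bot_eq] at this
    exact this
  rw [← Subgroup.card_mul_index c.act.ker, Subgroup.index_ker, hker,
    Nat.card_congr (Subgroup.subgroupOfEquivOfLe c.E_le_M).toEquiv, d.card_E]
  exact congrArg _ d.card_H

theorem exists_b {x : G ⧸ c.M} (hx : x ≠ c.pt) : ∃ b ∈ c.D x, orderOf b = p := by
  have hP := c.pointData_of_fix d
  haveI : Fact p.Prime := ⟨c.two.prime⟩
  haveI : Fact d.q.Prime := ⟨d.hq⟩
  obtain ⟨z, hz, hzq⟩ := hP.exists_z hx
  set ζ : c.H := c.res ⟨z, hz.1⟩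
  have hζ : orderOf (ζ : MulAut ↥(c.E : Subgroup G)) = d.q := by
    rw [show (ζ : MulAut ↥(c.E : Subgroup G)) = c.actD x ⟨z, hz⟩ from rfl,
      orderOf_injective _ (c.actD_injective hx), Subgroup.orderOf_mk, hzq]
  set K := Subgroup.zpowers ζ
  have hKcard : Nat.card K = d.q := by rw [Nat.card_zpowers, ← Subgroup.orderOf_coe, hζ]
  haveI : K.Normal := ⟨fun k hk h => by
    obtain ⟨i, rfl⟩ := Subgroup.mem_zpowers_iff.1 hk
    by_cases h1 : ζ ^ i = 1
    · rw [h1, mul_one, mul_inv_cancel]; exact one_mem _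
    have ho : orderOf (h * ζ ^ i * h⁻¹) = d.q := by
      rw [show h * ζ ^ i * h⁻¹ = (MulAut.conj h) (ζ ^ i) from rfl,
        show orderOf ((MulAut.conj h) (ζ ^ i)) = orderOf (ζ ^ i) from
          orderOf_injective (MulAut.conj h).toMonoidHom (MulAut.conj h).injective _]
      exact ((Nat.dvd_prime d.hq).1 (hKcard ▸ Subgroup.orderOf_dvd_natCard _ hk)).resolve_left
        fun e => h1 (orderOf_eq_one_iff.1 e)
    obtain ⟨j, hj⟩ := Subgroup.mem_zpowers_iff.1
      (d.uniq _ (h * ζ ^ i * h⁻¹).2 _ ζ.2 ((Subgroup.orderOf_coe _).trans ho) hζ)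
    exact ⟨j, Subtype.ext (by simpa using hj)⟩⟩
  obtain ⟨h₀, hh₀⟩ := exists_prime_orderOf_dvd_card' (G := c.H) p (by rw [d.card_H]; exact dvd_mul_left p d.q)
  have hh₀K : h₀ ∉ K := fun h => d.hqp (by
    have h' := Subgroup.orderOf_dvd_natCard _ h
    rw [hKcard, hh₀] at h'
    exact ((Nat.prime_dvd_prime_iff_eq c.two.prime d.hq).1 h').symm)
  obtain ⟨b, hb, hbn, -⟩ := c.exists_normalizing_lift (K := K) (zh := ⟨z, hz.1⟩) d.hq d.hqp hP.ne_two hKcard hzq
    (Subgroup.mem_zpowers ζ) hh₀K hh₀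
  refine ⟨b, ⟨b.2, ?_⟩, hb⟩
  have h1 : (b : G) • x ≠ c.pt := fun h => hx
    (MulAction.injective (b : G) (h.trans (c.smul_pt_iff.2 b.2).symm))
  refine hP.fix_two hx h1 hz hzq ?_
  obtain ⟨i, hi⟩ := Subgroup.mem_zpowers_iff.1
    (CoprimeAction.conj_mem (inv_mem hbn) (Subgroup.mem_zpowers z))
  rw [inv_inv] at hi
  have hzb : z * (b : G) = (b : G) * z ^ i := by rw [hi]; group
  rw [← mul_smul, hzb, mul_smul, MulAction.mem_stabilizer_iff.1 (zpow_mem (MulAction.mem_stabilizer_iff.2 hz.2) i)]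

theorem card_D_of_fix {x : G ⧸ c.M} (hx : x ≠ c.pt) : Nat.card (c.D x) = d.q * p := by
  haveI := mulAut_finite (A := ↥(c.E : Subgroup G))
  refine Nat.dvd_antisymm ?_ ?_
  · rw [Nat.card_congr (MonoidHom.ofInjective (c.actD_injective hx)).toEquiv, ← d.card_H]
    exact Subgroup.card_dvd_of_le fun h ⟨a, ha⟩ => ha ▸ c.actD_mem x a
  · refine Nat.Coprime.mul_dvd_of_dvd_of_dvd ((Nat.coprime_primes d.hq c.two.prime).2 d.hqp) ?_ ?_
    · have := c.card_E_pred_dvd_card_D hx
      rwa [d.card_E, Nat.add_sub_cancel] at this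
    · obtain ⟨b, hb, hbp⟩ := c.exists_b d hx
      exact hbp.symm.dvd.trans (Subgroup.orderOf_dvd_natCard _ hb)

theorem card_points : Nat.card (G ⧸ c.M) = d.q + 2 := by
  classical
  obtain ⟨x, hx⟩ := c.exists_pt_ne
  have hP := c.pointData_of_fix d
  have hst : MulAction.stabilizer c.M x = (c.D x).subgroupOf c.M := by
    ext m
    exact ⟨fun h => ⟨m.2, h⟩, fun h => h.2⟩
  have horb : MulAction.orbit c.M x = {c.pt}ᶜ := by
    ext y
    constructor
    · rintro ⟨m, rfl⟩ hy
      refine hx (MulAction.injective (m : G) ?_)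
      exact (show (m : G) • x = c.pt from hy).trans (c.smul_pt_iff.2 m.2).symm
    · intro hy
      obtain ⟨m, hm, hmy⟩ := hP.transitive d.hqp hx hy
      exact ⟨⟨m, hm⟩, hmy⟩
  have h1 := Subgroup.card_mul_index (MulAction.stabilizer c.M x)
  rw [MulAction.index_stabilizer, horb, Set.ncard_compl, Set.ncard_singleton, hst,
    Nat.card_congr (Subgroup.subgroupOfEquivOfLe (show c.D x ≤ c.M from inf_le_left)).toEquiv,
    c.card_D_of_fix d hx, c.card_M_of_fix d, mul_comm (d.q + 1)] at h1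
  have := Nat.eq_of_mul_eq_mul_left (Nat.mul_pos d.hq.pos c.two.prime.pos) h1
  omega

theorem card_G : Nat.card G = (d.q + 2) * ((d.q + 1) * (d.q * p)) := by
  rw [← Subgroup.card_mul_index c.M, c.card_M_of_fix d, Subgroup.index, c.card_points d, mul_comm]

/-- An element of order `p` of a two-point stabiliser fixes exactly one involution of `E`. -/
theorem exists_t {x : G ⧸ c.M} (hx : x ≠ c.pt) {b : G} (hb : b ∈ c.D x) (hbp : orderOf b = p) :
    p ∣ d.q - 1 ∧ ∃ t ∈ (c.E : Subgroup G), t ≠ 1 ∧ b * t = t * b ∧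
      ∀ e ∈ (c.E : Subgroup G), b * e = e * b → e = 1 ∨ e = t := by
  classical
  haveI := mulAut_finite (A := ↥(c.E : Subgroup G))
  haveI : Fact p.Prime := ⟨c.two.prime⟩
  set β := c.actD x ⟨b, hb⟩ with hβ
  have hβo : orderOf β = p := by rw [orderOf_injective _ (c.actD_injective hx), Subgroup.orderOf_mk, hbp]
  have hβ1 : β ≠ 1 := fun e => c.two.prime.one_lt.ne (by rw [← hβo, e, orderOf_one])
  set B := Subgroup.zpowers β
  have hBp : IsPGroup p B := IsPGroup.of_card (n := 1) (by rw [Nat.card_zpowers, hβo, pow_one])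
  have hfixed : ∀ e : ↥(c.E : Subgroup G), e ∈ MulAction.fixedPoints B ↥(c.E : Subgroup G) ↔ β e = e := by
    intro e
    refine ⟨fun h => h ⟨β, Subgroup.mem_zpowers β⟩, fun h a => ?_⟩
    exact MulAction.mem_stabilizer_iff.1
      ((Subgroup.zpowers_le).2 (show β ∈ MulAction.stabilizer (MulAut ↥(c.E : Subgroup G)) e from h) a.2)
  have hmod := hBp.card_modEq_card_fixedPoints (α := ↥(c.E : Subgroup G))
  obtain ⟨t, ht, ht1⟩ : ∃ t : ↥(c.E : Subgroup G), β t = t ∧ t ≠ 1 := by
    by_contra h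
    push Not at h
    have : MulAction.fixedPoints B ↥(c.E : Subgroup G) = {1} := by
      ext e
      rw [hfixed, Set.mem_singleton_iff]
      exact ⟨h e, fun he => by rw [he, map_one]⟩
    rw [Nat.card_coe_set_eq, this, Set.ncard_singleton, d.card_E] at hmod
    exact d.hqp ((Nat.prime_dvd_prime_iff_eq c.two.prime d.hq).1
      (by simpa using (Nat.modEq_iff_dvd' (by omega)).1 hmod.symm)).symm
  have hfix2 : MulAction.fixedPoints B ↥(c.E : Subgroup G) = {1, t} := by
    ext e
    rw [hfixed, Set.mem_insert_iff, Set.mem_singleton_iff]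
    refine ⟨fun he => ?_, fun h => by rcases h with rfl | rfl <;> [exact map_one _; exact ht]⟩
    by_cases e1 : e = 1
    · exact Or.inl e1
    · exact Or.inr (d.two_fix _ (c.actD_mem x ⟨b, hb⟩) hβ1 t e ht1 e1 ht he)
  rw [Nat.card_coe_set_eq, hfix2, Set.ncard_pair (Ne.symm ht1), d.card_E] at hmod
  have hq2 := d.hq.two_le
  refine ⟨by simpa using (Nat.modEq_iff_dvd' (by omega)).1 hmod.symm, t, t.2, fun h => ht1 (Subtype.ext h),
    (c.act_fix_iff ⟨b, hb.1⟩ t).1 ht, fun e he hbe => ?_⟩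
  have : (⟨e, he⟩ : ↥(c.E : Subgroup G)) ∈ MulAction.fixedPoints B ↥(c.E : Subgroup G) :=
    (hfixed _).2 ((c.act_fix_iff ⟨b, hb.1⟩ ⟨e, he⟩).2 hbe)
  rw [hfix2, Set.mem_insert_iff, Set.mem_singleton_iff] at this
  exact this.imp (congrArg Subtype.val) (congrArg Subtype.val)

/-- `E` is regular on the points other than `pt`. -/
theorem exists_E_smul {x : G ⧸ c.M} (hx : x ≠ c.pt) :
    (∀ e ∈ (c.E : Subgroup G), e • x = x → e = 1) ∧
    ∀ y : G ⧸ c.M, y ≠ c.pt → ∃ e ∈ (c.E : Subgroup G), e • x = y := by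
  classical
  have hfree : ∀ e ∈ (c.E : Subgroup G), e • x = x → e = 1 := by
    intro e he hex
    by_contra e1
    have h := (c.D_odd hx).of_dvd_nat (Subgroup.orderOf_dvd_natCard (c.D x) ⟨c.E_le_M he, hex⟩)
    rw [c.order_two he e1] at h
    exact absurd h (by decide)
  refine ⟨hfree, fun y hy => ?_⟩
  let φ : ↥(c.E : Subgroup G) → {v : G ⧸ c.M // v ≠ c.pt} := fun e => ⟨(e : G) • x, fun h =>
    hx (MulAction.injective (e : G) (h.trans (c.smul_pt_iff.2 (c.E_le_M e.2)).symm))⟩
  have hφ : Function.Injective φ := by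
    intro a b hab
    have h : (a : G) • x = (b : G) • x := congrArg Subtype.val hab
    have := hfree ((b : G)⁻¹ * a) (mul_mem (inv_mem b.2) a.2) (by rw [mul_smul, h, inv_smul_smul])
    exact Subtype.ext (inv_mul_eq_one.1 this).symm
  have hcard : Nat.card ↥(c.E : Subgroup G) = Nat.card {v : G ⧸ c.M // v ≠ c.pt} := by
    rw [show {v : G ⧸ c.M // v ≠ c.pt} = ↥({c.pt}ᶜ : Set (G ⧸ c.M)) from rfl, Nat.card_coe_set_eq,
      Set.ncard_compl, Set.ncard_singleton, c.card_points d, d.card_E]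
    omega
  obtain ⟨e, he⟩ := ((Nat.bijective_iff_injective_and_card φ).2 ⟨hφ, hcard⟩).2 ⟨y, hy⟩
  exact ⟨e, e.2, congrArg Subtype.val he⟩

/-- The centraliser of an element of order `p` with fixed points. -/
theorem centralizer_b {x : G ⧸ c.M} (hx : x ≠ c.pt) {b : G} (hb : b ∈ c.D x) (hbp : orderOf b = p) :
    Subgroup.normalizer (Subgroup.zpowers b : Set G) ≤ Subgroup.centralizer ({b} : Set G) ∧
    Nat.card (Subgroup.centralizer ({b} : Set G)) = 3 * (2 * p) ∧
    ∃ t ∈ (c.E : Subgroup G), t ≠ 1 ∧ b * t = t * b ∧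
      ∀ m ∈ c.M, m * b = b * m → m ∈ Subgroup.zpowers (t * b) := by
  classical
  haveI := mulAut_finite (A := ↥(c.E : Subgroup G))
  haveI : Fact p.Prime := ⟨c.two.prime⟩
  haveI : Fact d.q.Prime := ⟨d.hq⟩
  obtain ⟨hpq, t, ht, ht1, hbt, hunique⟩ := c.exists_t d hx hb hbp
  obtain ⟨hfree, hreg⟩ := c.exists_E_smul d hx
  have hto := c.order_two ht ht1
  have hbtc : Commute t b := hbt.symm
  have hco : (orderOf t).Coprime (orderOf b) := by
    rw [hto, hbp]; exact (Nat.coprime_primes Nat.prime_two c.two.prime).2 c.two.ne_two.symm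
  have htbo : orderOf (t * b) = 2 * p := by rw [hbtc.orderOf_mul_eq_mul_orderOf_of_coprime hco, hto, hbp]
  have hbp1 : b ^ p = 1 := orderOf_dvd_iff_pow_eq_one.1 hbp.dvd
  have ht2 : t * t = 1 := c.sq ht
  obtain ⟨k, hk⟩ : ∃ k, p = 2 * k + 1 := c.two.odd
  have htpow : t ^ p = t := by
    conv_lhs => rw [hk]
    rw [pow_succ, pow_mul, pow_two, ht2, one_pow, one_mul]
  have htY : t ∈ Subgroup.zpowers (t * b) := ⟨(p : ℤ), by simp [hbtc.mul_pow, hbp1, htpow]⟩
  have hbY : b ∈ Subgroup.zpowers (t * b) := by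
    have h := mul_mem (inv_mem htY) (Subgroup.mem_zpowers (t * b))
    rwa [inv_mul_cancel_left] at h
  set β := c.act ⟨b, hb.1⟩ with hβ
  have hβo : orderOf β = p := by
    rw [show β = c.actD x ⟨b, hb⟩ from rfl, orderOf_injective _ (c.actD_injective hx), Subgroup.orderOf_mk, hbp]
  have hβ1 : β ≠ 1 := fun e => c.two.prime.one_lt.ne (by rw [← hβo, e, orderOf_one])
  have hker : ∀ m (hm : m ∈ c.M), c.act ⟨m, hm⟩ = 1 → m ∈ (c.E : Subgroup G) := fun m hm h => by
    have := c.act_ker_le h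
    rwa [d.W_bot, sup_bot_eq] at this
  -- the centraliser in `M`
  have hCM : ∀ m ∈ c.M, m * b = b * m → m ∈ Subgroup.zpowers (t * b) := by
    intro m hm hmb
    set α := c.act ⟨m, hm⟩ with hα
    have hαβ : α * β = β * α := by
      rw [← map_mul, ← map_mul]
      exact congrArg c.act (Subtype.ext hmb)
    have hbt' : β ⟨t, ht⟩ = ⟨t, ht⟩ := (c.act_fix_iff _ _).2 hbt
    have ht1' : (⟨t, ht⟩ : ↥(c.E : Subgroup G)) ≠ 1 := fun h => ht1 (congrArg Subtype.val h)
    have hαt : α ⟨t, ht⟩ = ⟨t, ht⟩ := by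
      refine d.two_fix β (c.act_mem_H _) hβ1 ⟨t, ht⟩ (α ⟨t, ht⟩) ht1'
        (fun h => ht1' (α.injective (h.trans (map_one α).symm))) hbt' ?_
      rw [← MulAut.mul_apply, ← hαβ, MulAut.mul_apply, hbt']
    -- the stabiliser of `t` has order `p`
    have hst : α ∈ Subgroup.zpowers β := by
      have hc := c.card_H ht1'
      rw [d.card_E, Nat.add_sub_cancel, d.card_H] at hc
      have hc' := Nat.eq_of_mul_eq_mul_left d.hq.pos hc
      have heq : Subgroup.zpowers (⟨β, c.act_mem_H _⟩ : c.H) = MulAction.stabilizer c.H (⟨t, ht⟩ : ↥(c.E : Subgroup G)) :=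
        Subgroup.eq_of_le_of_card_ge ((Subgroup.zpowers_le).2 (MulAction.mem_stabilizer_iff.2 hbt'))
          (by rw [hc', Nat.card_zpowers, ← Subgroup.orderOf_coe]; exact hβo.ge)
      have : (⟨α, c.act_mem_H _⟩ : c.H) ∈ Subgroup.zpowers (⟨β, c.act_mem_H _⟩ : c.H) :=
        heq ▸ MulAction.mem_stabilizer_iff.2 hαt
      obtain ⟨i, hi⟩ := Subgroup.mem_zpowers_iff.1 this
      exact ⟨i, by simpa using congrArg Subtype.val hi⟩
    obtain ⟨i, hi⟩ := Subgroup.mem_zpowers_iff.1 hst
    have he : m * (b ^ i)⁻¹ ∈ (c.E : Subgroup G) := by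
      refine hker _ (mul_mem hm (inv_mem (zpow_mem (show b ∈ c.M from hb.1) i))) ?_
      rw [show (⟨m * (b ^ i)⁻¹, mul_mem hm (inv_mem (zpow_mem (show b ∈ c.M from hb.1) i))⟩ : c.M) = ⟨m, hm⟩ * (⟨b, hb.1⟩ ^ i)⁻¹ from
        Subtype.ext (by simp), map_mul, map_inv, map_zpow, ← hβ, hi, hα, mul_inv_cancel]
    have hcm : b * (m * (b ^ i)⁻¹) = (m * (b ^ i)⁻¹) * b :=
      ((show Commute b m from hmb.symm).mul_right ((Commute.self_zpow b i).inv_right)).eq
    have hmem : m * (b ^ i)⁻¹ ∈ Subgroup.zpowers (t * b) := by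
      rcases hunique _ he hcm with e | e
      · rw [e]; exact one_mem _
      · rw [e]; exact htY
    have := mul_mem hmem (zpow_mem hbY i)
    rwa [inv_mul_cancel_right] at this
  -- the fixed points of `b`
  have hbpt : b • c.pt = c.pt := c.smul_pt_iff.2 hb.1
  have hF : ∀ v : G ⧸ c.M, b • v = v → v = c.pt ∨ v = x ∨ v = t • x := by
    intro v hv
    by_cases hv1 : v = c.pt
    · exact Or.inl hv1
    obtain ⟨e, he, rfl⟩ := hreg v hv1
    have hbe : b * e * b⁻¹ ∈ (c.E : Subgroup G) := CoprimeAction.conj_mem hb.1 he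
    have h1 : (b * e * b⁻¹) • x = e • x := by
      conv_lhs => rw [show x = b • x from hb.2.symm]
      rw [← mul_smul, inv_mul_cancel_right, mul_smul, hv]
    have h2 := hfree (e⁻¹ * (b * e * b⁻¹)) (mul_mem (inv_mem he) hbe) (by rw [mul_smul, h1, inv_smul_smul])
    have h3 : b * e = e * b := by
      have := (inv_mul_eq_one.1 h2).symm
      rwa [mul_inv_eq_iff_eq_mul] at this
    rcases hunique e he h3 with rfl | rfl
    · exact Or.inr (Or.inl (one_smul _ _))
    · exact Or.inr (Or.inr rfl)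
  -- a swapping involution commuting with `b`
  obtain ⟨u, hux, hub⟩ : ∃ u : G, u • c.pt = x ∧ u * b = b * u := by
    have hbx : b • x = x := hb.2
    letI : MulAction (Subgroup.zpowers b) (TwoFusion.swappingInvolutions c.M c.pt x) :=
      { smul := fun a s => ⟨(a : G) * s * (a : G)⁻¹,
          (orderOf_injective (MulAut.conj (a : G)).toMonoidHom (MulAut.conj (a : G)).injective (s : G)).trans s.2.1, by
            have ha := a.2
            obtain ⟨i, hi⟩ := Subgroup.mem_zpowers_iff.1 ha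
            show ((a : G) * (s : G) * (a : G)⁻¹) • c.pt = x
            rw [mul_smul, mul_smul, ← hi,
              MulAction.mem_stabilizer_iff.1 (inv_mem (zpow_mem (MulAction.mem_stabilizer_iff.2 hbpt) i)), s.2.2,
              MulAction.mem_stabilizer_iff.1 (zpow_mem (MulAction.mem_stabilizer_iff.2 hbx) i)]⟩
        one_smul := fun s => Subtype.ext (show (1 : G) * s * (1 : G)⁻¹ = s by simp)
        mul_smul := fun a a' s => Subtype.ext (show ((a : G) * a') * s * ((a : G) * a')⁻¹ =
          (a : G) * ((a' : G) * s * (a' : G)⁻¹) * (a : G)⁻¹ by group) }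
    have hBp : IsPGroup p (Subgroup.zpowers b) := IsPGroup.of_card (n := 1) (by rw [Nat.card_zpowers, hbp, pow_one])
    obtain ⟨s, hs⟩ := hBp.nonempty_fixed_point_of_prime_not_dvd_card
      (TwoFusion.swappingInvolutions c.M c.pt x) (by
        rw [c.card_swapping hx, d.card_E, Nat.add_sub_cancel]
        exact fun h => d.hqp ((Nat.prime_dvd_prime_iff_eq c.two.prime d.hq).1 h).symm)
    refine ⟨s, s.2.2, ?_⟩
    have h := congrArg Subtype.val (hs ⟨b, Subgroup.mem_zpowers b⟩)
    change b * (s : G) * b⁻¹ = s at h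
    exact (mul_inv_eq_iff_eq_mul.1 h).symm
  have hF' : ∀ v : G ⧸ c.M, b • v = v → ∃ a, a * b = b * a ∧ a • c.pt = v := by
    intro v hv
    rcases hF v hv with rfl | rfl | rfl
    · exact ⟨1, by simp, one_smul _ _⟩
    · exact ⟨u, hub, hux⟩
    · exact ⟨t * u, ((show Commute t b from hbtc).mul_left (show Commute u b from hub)).eq, by rw [mul_smul, hux]⟩
  -- the normaliser in `M`
  have hNM : ∀ m ∈ c.M, m * b * m⁻¹ ∈ Subgroup.zpowers b → m * b = b * m := by
    intro m hm hmb
    obtain ⟨z, hz, hzq⟩ := (c.pointData_of_fix d).exists_z hx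
    set ζ : c.H := c.res ⟨z, hz.1⟩
    have hζ : orderOf (ζ : MulAut ↥(c.E : Subgroup G)) = d.q := by
      rw [show (ζ : MulAut ↥(c.E : Subgroup G)) = c.actD x ⟨z, hz⟩ from rfl,
        orderOf_injective _ (c.actD_injective hx), Subgroup.orderOf_mk, hzq]
    set K := Subgroup.zpowers ζ
    haveI : K.Normal := ⟨fun k hk h => by
      obtain ⟨i, rfl⟩ := Subgroup.mem_zpowers_iff.1 hk
      have hn : h * ζ * h⁻¹ ∈ K := by
        obtain ⟨j, hj⟩ := Subgroup.mem_zpowers_iff.1 (d.uniq _ (h * ζ * h⁻¹).2 _ ζ.2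
          ((Subgroup.orderOf_coe _).trans ((orderOf_injective (MulAut.conj h).toMonoidHom (MulAut.conj h).injective ζ).trans
            ((Subgroup.orderOf_coe ζ).symm.trans hζ))) hζ)
        exact ⟨j, Subtype.ext (by simpa using hj)⟩
      rw [← conj_zpow]
      exact zpow_mem hn i⟩
    have hindex : K.index = p := by
      have h := Subgroup.card_mul_index K
      rw [Nat.card_zpowers, ← Subgroup.orderOf_coe, hζ, d.card_H] at h
      exact Nat.eq_of_mul_eq_mul_left d.hq.pos h
    haveI : IsCyclic (c.H ⧸ K) := isCyclic_of_prime_card (p := p) (by rw [← Subgroup.index_eq_card, hindex])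
    set w := m * b * m⁻¹ * b⁻¹ with hw
    have hwB : w ∈ Subgroup.zpowers b := mul_mem hmb (inv_mem (Subgroup.mem_zpowers b))
    have hwM : w ∈ c.M := mul_mem (mul_mem (mul_mem hm hb.1) (inv_mem hm)) (inv_mem hb.1)
    have hwK : c.res ⟨w, hwM⟩ ∈ K := by
      rw [← QuotientGroup.eq_one_iff]
      show QuotientGroup.mk' K (c.res ⟨w, hwM⟩) = 1
      rw [show (⟨w, hwM⟩ : c.M) = ⟨m, hm⟩ * ⟨b, hb.1⟩ * ⟨m, hm⟩⁻¹ * ⟨b, hb.1⟩⁻¹ from Subtype.ext rfl,
        map_mul, map_mul, map_mul, map_mul, map_mul, map_mul, map_inv, map_inv, map_inv, map_inv]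
      rw [IsMulCommutative.is_comm.comm (QuotientGroup.mk' K (c.res ⟨m, hm⟩)), mul_inv_cancel_right, mul_inv_cancel]
    have hw1 : c.act ⟨w, hwM⟩ = 1 := by
      have h1 := Subgroup.orderOf_dvd_natCard _ hwK
      rw [Nat.card_zpowers, ← Subgroup.orderOf_coe ζ, hζ, ← Subgroup.orderOf_coe, c.coe_res] at h1
      have h2 : orderOf (c.act ⟨w, hwM⟩) ∣ p := by
        refine (orderOf_map_dvd c.act _).trans ?_
        rw [Subgroup.orderOf_mk]
        have := Subgroup.orderOf_dvd_natCard _ hwB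
        rwa [Nat.card_zpowers, hbp] at this
      exact orderOf_eq_one_iff.1 (Nat.eq_one_of_dvd_coprimes ((Nat.coprime_primes d.hq c.two.prime).2 d.hqp) h1 h2)
    have hwE := hker w hwM hw1
    have : w = 1 := by
      by_contra h
      have h3 := Subgroup.orderOf_dvd_natCard _ hwB
      rw [Nat.card_zpowers, hbp, c.order_two hwE h] at h3
      exact c.two.ne_two ((Nat.prime_dvd_prime_iff_eq Nat.prime_two c.two.prime).1 h3).symm
    rw [hw, mul_inv_eq_one, mul_inv_eq_iff_eq_mul] at this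
    exact this
  refine ⟨fun m hm => Subgroup.mem_centralizer_singleton_iff.2 ?_, ?_, t, ht, ht1, hbt, hCM⟩
  · have hv : b • m • c.pt = m • c.pt := by
      have hcj : m⁻¹ * b * m ∈ Subgroup.zpowers b := by
        simpa using CoprimeAction.conj_mem (inv_mem hm) (Subgroup.mem_zpowers b)
      obtain ⟨i, hi⟩ := Subgroup.mem_zpowers_iff.1 hcj
      rw [← mul_smul, show b * m = m * b ^ i by rw [hi]; group, mul_smul,
        MulAction.mem_stabilizer_iff.1 (zpow_mem (MulAction.mem_stabilizer_iff.2 hbpt) i)]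
    obtain ⟨a, hab, ha⟩ := hF' _ hv
    have hm' : a⁻¹ * m ∈ c.M := c.smul_pt_iff.1 (by rw [mul_smul, ← ha, inv_smul_smul])
    have hcb : b * a⁻¹ = a⁻¹ * b := ((show Commute b a from hab.symm).inv_right).eq
    have h1 := hNM _ hm' (by
      have haN : a⁻¹ ∈ Subgroup.normalizer (Subgroup.zpowers b : Set G) :=
        Subgroup.centralizer_le_normalizer _ (Subgroup.mem_centralizer_iff.2 fun y hy => by
          obtain ⟨i, rfl⟩ := Subgroup.mem_zpowers_iff.1 hy
          exact ((show Commute b a⁻¹ from hcb).zpow_left i).eq)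
      exact CoprimeAction.conj_mem (mul_mem haN hm) (Subgroup.mem_zpowers b))
    calc m * b = a * (a⁻¹ * m * b) := by group
      _ = a * (b * (a⁻¹ * m)) := by rw [h1]
      _ = a * b * a⁻¹ * m := by group
      _ = b * m := by rw [hab, mul_inv_cancel_right]
  · set C := Subgroup.centralizer ({b} : Set G)
    have hst : MulAction.stabilizer C c.pt = (Subgroup.zpowers (t * b)).subgroupOf C := by
      ext m
      constructor
      · exact fun h => hCM m (c.smul_pt_iff.1 h) (Subgroup.mem_centralizer_singleton_iff.1 m.2)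
      · intro h
        exact c.smul_pt_iff.2 ((Subgroup.zpowers_le).2 (mul_mem (c.E_le_M ht) hb.1) h)
    have hYC : Subgroup.zpowers (t * b) ≤ C := (Subgroup.zpowers_le).2
      (Subgroup.mem_centralizer_singleton_iff.2 ((hbtc.mul_left (Commute.refl b)).eq))
    have htx : t • x ≠ x := fun h => ht1 (hfree t ht h)
    have htpt : t • x ≠ c.pt := fun h => hx (MulAction.injective t (h.trans (c.smul_pt_iff.2 (c.E_le_M ht)).symm))
    have horb : MulAction.orbit C c.pt = {c.pt, x, t • x} := by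
      ext v
      constructor
      · rintro ⟨a, rfl⟩
        show (a : G) • c.pt ∈ _
        rcases hF ((a : G) • c.pt) (by
          rw [← mul_smul, ← Subgroup.mem_centralizer_singleton_iff.1 a.2, mul_smul, hbpt]) with h | h | h <;> simp [h]
      · intro hv
        obtain ⟨a, hab, ha⟩ := hF' v (by
          rcases hv with rfl | rfl | rfl
          · exact hbpt
          · exact hb.2
          · rw [← mul_smul, hbt, mul_smul, show b • x = x from hb.2])
        exact ⟨⟨a, Subgroup.mem_centralizer_singleton_iff.2 hab⟩, ha⟩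
    rw [← Subgroup.card_mul_index (MulAction.stabilizer C c.pt), MulAction.index_stabilizer, horb, hst,
      Nat.card_congr (Subgroup.subgroupOfEquivOfLe hYC).toEquiv, Nat.card_zpowers, htbo,
      Set.ncard_eq_three.2 ⟨_, _, _, Ne.symm hx, Ne.symm htpt, Ne.symm htx, rfl⟩, mul_comm]

omit d

theorem not_fix : c.NoFix := by
  classical
  by_contra hfix
  obtain ⟨d⟩ := c.fixData hfix
  haveI : Fact p.Prime := ⟨c.two.prime⟩
  haveI : Fact (Nat.Prime 2) := ⟨Nat.prime_two⟩
  obtain ⟨x, hx⟩ := c.exists_pt_ne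
  obtain ⟨b, hb, hbp⟩ := c.exists_b d hx
  obtain ⟨hN, hCcard, t, ht, ht1, hbt, hCM⟩ := c.centralizer_b d hx hb hbp
  have hpq : p ∣ d.q - 1 := (c.exists_t d hx hb hbp).1
  have hq0 := d.hq.pos
  have hpp := c.two.prime.two_le
  obtain ⟨kk, hkk⟩ := hpq
  have hq : d.q = p * kk + 1 := by omega
  have hbp1 : b ^ p = 1 := orderOf_dvd_iff_pow_eq_one.1 hbp.dvd
  have hb1 : b ≠ 1 := fun h => c.two.prime.one_lt.ne (by rw [← hbp, h, orderOf_one])
  have hBp : IsPGroup p (Subgroup.zpowers b) := IsPGroup.of_card (n := 1) (by rw [Nat.card_zpowers, hbp, pow_one])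
  -- the criterion
  have crit : ∀ S : Sylow p G, ∀ hbS : b ∈ (S : Subgroup G), Abelianization.of (⟨b, hbS⟩ : ↥(S : Subgroup G)) ≠ 1 →
      (∀ g : G, g⁻¹ * b * g ∈ (S : Subgroup G) → ∃ s ∈ (S : Subgroup G), g⁻¹ * b * g = s * b * s⁻¹) → False := by
    intro S hbS hne hfus
    refine hne (eq_one_of_constant_fusion c.nonab S Abelianization.of hbp1 hbS fun g hg => ?_)
    obtain ⟨s, hs, hse⟩ := hfus g hg
    rw [show (⟨g⁻¹ * b * g, hg⟩ : ↥(S : Subgroup G)) = ⟨s, hs⟩ * ⟨b, hbS⟩ * ⟨s, hs⟩⁻¹ from Subtype.ext hse,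
      map_mul, map_mul, map_inv, mul_comm (Abelianization.of (⟨s, hs⟩ : ↥(S : Subgroup G))), mul_inv_cancel_right]
  have hNb : ∀ g : G, g⁻¹ * b * g ∈ Subgroup.zpowers b → g⁻¹ * b * g = b := by
    intro g hg
    have hgN : g⁻¹ ∈ Subgroup.normalizer (Subgroup.zpowers b : Set G) := by
      refine CoprimeAction.mem_normalizer_of_conj_mem fun y hy => ?_
      obtain ⟨i, rfl⟩ := Subgroup.mem_zpowers_iff.1 hy
      rw [← conj_zpow, inv_inv]
      exact zpow_mem hg i
    have := Subgroup.mem_centralizer_singleton_iff.1 (hN hgN)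
    rw [this, inv_mul_cancel_right]
  have hG := c.card_G d
  obtain ⟨P, hbP⟩ := hBp.exists_le_sylow
  obtain ⟨e, he⟩ := IsPGroup.iff_card.1 P.isPGroup'
  have hbPm : b ∈ (P : Subgroup G) := hbP (Subgroup.mem_zpowers b)
  have hcop1 : ¬ p ∣ (d.q + 1) * d.q := by
    intro h
    rcases c.two.prime.dvd_mul.1 h with h | h
    · rw [hq, show p * kk + 1 + 1 = p * kk + 2 by ring, Nat.dvd_add_right (dvd_mul_right p kk)] at h
      exact c.two.ne_two ((Nat.prime_dvd_prime_iff_eq c.two.prime Nat.prime_two).1 h)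
    · exact d.hqp ((Nat.prime_dvd_prime_iff_eq c.two.prime d.hq).1 h).symm
  have hPdvd : Nat.card ↥(P : Subgroup G) ∣ (d.q + 2) * p := by
    have h := Subgroup.card_subgroup_dvd_card (P : Subgroup G)
    rw [hG, show (d.q + 2) * ((d.q + 1) * (d.q * p)) = (d.q + 2) * p * ((d.q + 1) * d.q) by ring] at h
    rw [he] at h ⊢
    exact (((c.two.prime.coprime_iff_not_dvd).2 hcop1).pow_left e).dvd_of_dvd_mul_right h
  -- reduce to `p = 3`
  by_cases hp3 : p ≠ 3
  · have hne : ¬ p ∣ d.q + 2 := by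
      rw [hq, show p * kk + 1 + 2 = p * kk + 3 by ring, Nat.dvd_add_right (dvd_mul_right p kk)]
      exact fun h => hp3 ((Nat.prime_dvd_prime_iff_eq c.two.prime Nat.prime_three).1 h)
    have hdp : Nat.card ↥(P : Subgroup G) ∣ p := by
      rw [he] at hPdvd ⊢
      exact (((c.two.prime.coprime_iff_not_dvd).2 hne).pow_left e).dvd_of_dvd_mul_left hPdvd
    have heq : Subgroup.zpowers b = (P : Subgroup G) := Subgroup.eq_of_le_of_card_ge hbP
      (by rw [Nat.card_zpowers, hbp]; exact Nat.le_of_dvd c.two.prime.pos hdp)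
    refine crit P hbPm (fun h => hb1 ?_) fun g hg => ⟨1, one_mem _, by
      rw [hNb g (heq ▸ hg), one_mul, inv_one, mul_one]⟩
    haveI : IsMulCommutative ↥(P : Subgroup G) := heq ▸ inferInstance
    letI : CommGroup ↥(P : Subgroup G) :=
      { (inferInstance : Group ↥(P : Subgroup G)) with mul_comm := fun a b => IsMulCommutative.is_comm.comm a b }
    exact congrArg Subtype.val (Abelianization.equivOfComm.injective (h.trans (map_one _).symm))
  push Not at hp3
  obtain ⟨r, hr3, hr⟩ := c.isPGroup_E_card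
  rw [d.card_E] at hr
  have hcomm9 : ∀ {K : Subgroup G}, Nat.card K ∣ 9 → ∀ a ∈ K, ∀ a' ∈ K, a * a' = a' * a := by
    intro K hK a ha a' ha'
    haveI : Fact (Nat.Prime 3) := ⟨Nat.prime_three⟩
    obtain ⟨i, hi, hKi⟩ := (Nat.dvd_prime_pow Nat.prime_three).1 (show Nat.card K ∣ 3 ^ 2 by norm_num; exact hK)
    interval_cases i
    · haveI := (Nat.card_eq_one_iff_unique.1 (hKi.trans (pow_zero 3))).1
      exact congrArg Subtype.val (Subsingleton.elim ((⟨a, ha⟩ : K) * ⟨a', ha'⟩) (⟨a', ha'⟩ * ⟨a, ha⟩))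
    · haveI : IsCyclic K := isCyclic_of_prime_card (hKi.trans (pow_one 3))
      exact congrArg Subtype.val (IsMulCommutative.is_comm.comm (⟨a, ha⟩ : K) ⟨a', ha'⟩)
    · letI := IsPGroup.commGroupOfCardEqPrimeSq hKi
      exact congrArg Subtype.val (mul_comm (⟨a, ha⟩ : K) ⟨a', ha'⟩)
  by_cases h9 : ¬ 9 ∣ d.q + 2
  · -- a Sylow 3-subgroup of order 9
    subst hp3
    have hcard9 : ∀ S : Sylow 3 G, Nat.card ↥(S : Subgroup G) ∣ 9 ∧ Nat.card ↥(S : Subgroup G) = Nat.card ↥(P : Subgroup G) := by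
      intro S
      have hSP : Nat.card ↥(S : Subgroup G) = Nat.card ↥(P : Subgroup G) := Sylow.card_eq_multiplicity S |>.trans
        (Sylow.card_eq_multiplicity P).symm
      refine ⟨?_, hSP⟩
      rw [hSP, he]
      rw [he] at hPdvd
      by_contra h
      have he3 : 3 ≤ e := by
        by_contra h3
        exact h ((pow_dvd_pow 3 (by omega : e ≤ 2)).trans (by norm_num))
      have h27 : 3 ^ 3 ∣ (d.q + 2) * 3 := (pow_dvd_pow 3 he3).trans hPdvd
      exact h9 (Nat.dvd_of_mul_dvd_mul_right (by norm_num : 0 < 3) (by simpa using h27))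
    have hC18 : Nat.card (Subgroup.centralizer ({b} : Set G)) = 18 := by rw [hCcard]
    obtain ⟨Q⟩ : Nonempty (Sylow 3 (Subgroup.centralizer ({b} : Set G))) := inferInstance
    have hQ9 : Nat.card ↥(Q : Subgroup ↥(Subgroup.centralizer ({b} : Set G))) = 9 := by
      have hd : 3 ^ 2 ∣ Nat.card (Subgroup.centralizer ({b} : Set G)) := by rw [hC18]; norm_num
      have h1 := Q.pow_dvd_card_of_pow_dvd_card hd
      obtain ⟨i, hi⟩ := IsPGroup.iff_card.1 Q.isPGroup'
      have h2 := Subgroup.card_subgroup_dvd_card (Q : Subgroup ↥(Subgroup.centralizer ({b} : Set G)))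
      rw [hC18, hi] at h2
      rw [hi] at h1 ⊢
      have hi2 : i ≤ 2 := by
        by_contra h3
        have := (pow_dvd_pow 3 (by omega : 3 ≤ i)).trans h2
        norm_num at this
      have := Nat.le_of_dvd (by positivity) h1
      interval_cases i <;> simp_all
    set S := (Q : Subgroup ↥(Subgroup.centralizer ({b} : Set G))).map (Subgroup.centralizer ({b} : Set G)).subtype with hS
    have hScard : Nat.card S = 9 := by rw [hS, Subgroup.card_map_of_injective (Subgroup.subtype_injective _), hQ9]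
    have hSp : IsPGroup 3 S := Q.isPGroup'.map _
    obtain ⟨T, hST⟩ := hSp.exists_le_sylow
    have hT9 : Nat.card ↥(T : Subgroup G) = 9 := Nat.dvd_antisymm (hcard9 T).1 (hScard ▸ Subgroup.card_dvd_of_le hST)
    have hST' : S = (T : Subgroup G) := Subgroup.eq_of_le_of_card_ge hST (by rw [hT9, hScard])
    -- `Q` is normal and contains `b`
    haveI hQn : (Q : Subgroup (Subgroup.centralizer ({b} : Set G))).Normal := by
      refine Subgroup.normal_of_index_eq_two ?_
      have h := Subgroup.card_mul_index (Q : Subgroup (Subgroup.centralizer ({b} : Set G)))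
      rw [hQ9, hC18] at h
      omega
    have hbC : b ∈ Subgroup.centralizer ({b} : Set G) := Subgroup.mem_centralizer_singleton_iff.2 rfl
    have hmemT : ∀ y ∈ Subgroup.centralizer ({b} : Set G), y ^ 3 = 1 → y ∈ (T : Subgroup G) := by
      intro y hy hy3
      have hp : IsPGroup 3 (Subgroup.zpowers (⟨y, hy⟩ : Subgroup.centralizer ({b} : Set G))) := by
        obtain ⟨i, -, hi⟩ := (Nat.dvd_prime_pow Nat.prime_three).1
          (show orderOf (⟨y, hy⟩ : Subgroup.centralizer ({b} : Set G)) ∣ 3 ^ 1 by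
            rw [Subgroup.orderOf_mk, pow_one]; exact orderOf_dvd_of_pow_eq_one hy3)
        exact IsPGroup.of_card (n := i) (by rw [Nat.card_zpowers]; exact hi)
      obtain ⟨Q', hQ'⟩ := hp.exists_le_sylow
      haveI := Sylow.unique_of_normal Q hQn
      rw [Subsingleton.elim Q' Q] at hQ'
      rw [← hST']
      exact ⟨_, hQ' (Subgroup.mem_zpowers _), rfl⟩
    have hbT : b ∈ (T : Subgroup G) := hmemT b hbC hbp1
    refine crit T hbT (fun h => hb1 ?_) fun g hg => ⟨1, one_mem _, ?_⟩
    · letI : CommGroup ↥(T : Subgroup G) :=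
        { (inferInstance : Group ↥(T : Subgroup G)) with
          mul_comm := fun a a' => Subtype.ext (hcomm9 (hcard9 T).1 a a.2 a' a'.2) }
      exact congrArg Subtype.val (Abelianization.equivOfComm.injective (h.trans (map_one _).symm))
    -- `g` may be taken in the normaliser of `T`
    rw [one_mul, inv_one, mul_one]
    have hgN : g⁻¹ ∈ Subgroup.normalizer ((T : Subgroup G) : Set G) := by
      refine CoprimeAction.mem_normalizer_of_conj_mem fun y hy => ?_
      rw [inv_inv]
      -- `g T g⁻¹` is contained in the centraliser of `b`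
      have hall : ∀ y ∈ (T : Subgroup G), g * y * g⁻¹ ∈ (T : Subgroup G) := by
        intro y hy
        have h1 : (g⁻¹ * b * g) * y = y * (g⁻¹ * b * g) := hcomm9 (hcard9 T).1 _ hg _ hy
        refine hmemT _ (Subgroup.mem_centralizer_singleton_iff.2 ?_) ?_
        · calc g * y * g⁻¹ * b = g * (y * (g⁻¹ * b * g)) * g⁻¹ := by group
            _ = g * ((g⁻¹ * b * g) * y) * g⁻¹ := by rw [h1]
            _ = _ := by group
        · rw [conj_pow]
          obtain ⟨i, hi⟩ := IsPGroup.iff_orderOf.1 T.isPGroup' ⟨y, hy⟩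
          rw [Subgroup.orderOf_mk] at hi
          rcases i with _ | i
          · rw [pow_zero, orderOf_eq_one_iff] at hi
            simp [hi]
          rcases c.two.2.2 y with h | h | h
          · rw [orderOf_eq_one_iff.1 h]; simp
          · have : orderOf y = 3 := (Nat.prime_dvd_prime_iff_eq h Nat.prime_three).1 (h.dvd_of_dvd_pow hi.dvd)
            rw [← this, pow_orderOf_eq_one]; simp
          · exfalso
            have h2 : 2 ∣ 3 ^ (i + 1) := hi ▸ h ▸ dvd_mul_right 2 3
            exact absurd (Nat.prime_two.dvd_of_dvd_pow h2) (by norm_num)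
      have hinj : Function.Injective (fun y : ↥(T : Subgroup G) => (⟨g * y * g⁻¹, hall y y.2⟩ : ↥(T : Subgroup G))) :=
        fun a a' h => Subtype.ext (mul_left_cancel (mul_right_cancel (congrArg Subtype.val h)))
      obtain ⟨z, hz⟩ := (Finite.injective_iff_surjective.1 hinj) ⟨y, hy⟩
      have hz' : g * (z : G) * g⁻¹ = y := congrArg Subtype.val hz
      rw [show g⁻¹ * y * g = (z : G) by rw [← hz']; group]
      exact z.2
    -- the normaliser of `T` centralises `b`
    set N := Subgroup.normalizer ((T : Subgroup G) : Set G) with hNdef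
    set C := Subgroup.centralizer ({b} : Set G) with hCdef
    suffices hle : N ≤ C by
      have h := Subgroup.mem_centralizer_singleton_iff.1 (hle hgN)
      rw [h, inv_mul_cancel_right]
    have hCN : C ≤ N := by
      intro a ha
      refine CoprimeAction.mem_normalizer_of_conj_mem fun y hy => ?_
      rw [← hST'] at hy ⊢
      obtain ⟨y, hy, rfl⟩ := hy
      exact ⟨⟨a, ha⟩ * y * ⟨a, ha⟩⁻¹, hQn.conj_mem y hy _, rfl⟩
    -- the orbit of `b` has at most four elements
    let O : Set ↥(T : Subgroup G) := {y | ∃ n ∈ N, n * b * n⁻¹ = (y : G)}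
    have hOinv : ∀ y ∈ O, y⁻¹ ∉ O := by
      rintro y ⟨n, hn, hny⟩ ⟨m, hm, hmy⟩
      rw [InvMemClass.coe_inv, ← hny] at hmy
      have h1 : (m⁻¹ * n)⁻¹⁻¹ * b * (m⁻¹ * n)⁻¹ = b⁻¹ := by
        rw [inv_inv, show m⁻¹ * n * b * (m⁻¹ * n)⁻¹ = m⁻¹ * (n * b * n⁻¹) * m by group,
          show n * b * n⁻¹ = (m * b * m⁻¹)⁻¹ by rw [hmy, inv_inv]]
        group
      have h2 := hNb ((m⁻¹ * n)⁻¹) (by rw [h1]; exact inv_mem (Subgroup.mem_zpowers b))
      rw [h1] at h2
      have h3 : b ^ 2 = 1 := by rw [pow_two]; exact mul_eq_one_iff_eq_inv.2 h2.symm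
      exact absurd (Nat.le_of_dvd (by norm_num) (hbp ▸ orderOf_dvd_of_pow_eq_one h3)) (by norm_num)
    have hOcard : O.ncard ≤ 4 := by
      have hd : Disjoint O ((fun y => y⁻¹) '' O) := by
        rw [Set.disjoint_left]
        rintro y hy ⟨z, hz, rfl⟩
        exact hOinv z hz hy
      have h1 : (1 : ↥(T : Subgroup G)) ∉ O ∪ (fun y => y⁻¹) '' O := by
        have h0 : (1 : ↥(T : Subgroup G)) ∉ O := fun ⟨n, _, hn1⟩ => hb1 (conj_eq_one_iff.1 hn1)
        rintro (h | ⟨z, hz, hz1⟩)
        · exact h0 h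
        · exact h0 (inv_eq_one.1 hz1 ▸ hz)
      have h2 : (insert (1 : ↥(T : Subgroup G)) (O ∪ (fun y => y⁻¹) '' O)).ncard ≤ 9 :=
        (Set.ncard_le_ncard (Set.subset_univ _)).trans (by rw [Set.ncard_univ, hT9])
      rw [Set.ncard_insert_of_notMem h1, Set.ncard_union_eq hd, Set.ncard_image_of_injective _ inv_injective] at h2
      omega
    letI : MulAction N ↥(T : Subgroup G) :=
      { smul := fun n y => ⟨(n : G) * y * (n : G)⁻¹, CoprimeAction.conj_mem n.2 y.2⟩
        one_smul := fun y => Subtype.ext (show (1 : G) * y * (1 : G)⁻¹ = y by simp)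
        mul_smul := fun m n y => Subtype.ext (show ((m : G) * n) * y * ((m : G) * n)⁻¹ =
          (m : G) * ((n : G) * y * (n : G)⁻¹) * (m : G)⁻¹ by group) }
    have horb : MulAction.orbit N (⟨b, hbT⟩ : ↥(T : Subgroup G)) = O := by
      ext y
      constructor
      · rintro ⟨n, rfl⟩; exact ⟨n, n.2, rfl⟩
      · rintro ⟨n, hn, hny⟩; exact ⟨⟨n, hn⟩, Subtype.ext hny⟩
    have hstab : MulAction.stabilizer N (⟨b, hbT⟩ : ↥(T : Subgroup G)) = C.subgroupOf N := by
      ext n
      rw [MulAction.mem_stabilizer_iff, Subgroup.mem_subgroupOf, hCdef, Subgroup.mem_centralizer_singleton_iff]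
      exact ⟨fun h => mul_inv_eq_iff_eq_mul.1 (congrArg Subtype.val h),
        fun h => Subtype.ext (mul_inv_eq_iff_eq_mul.2 h)⟩
    have hNcard : Nat.card N = 18 * O.ncard := by
      rw [← Subgroup.card_mul_index (MulAction.stabilizer N (⟨b, hbT⟩ : ↥(T : Subgroup G))),
        MulAction.index_stabilizer, horb, hstab, Nat.card_congr (Subgroup.subgroupOfEquivOfLe hCN).toEquiv, hC18]
    have h3 : ¬ 3 ∣ O.ncard := by
      intro h
      obtain ⟨i, hi⟩ := h
      have h27 : 3 ^ 3 ∣ Nat.card G := by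
        refine Dvd.dvd.trans ⟨2 * i, ?_⟩ (Subgroup.card_subgroup_dvd_card N)
        rw [hNcard, hi]; ring
      have h1 := T.pow_dvd_card_of_pow_dvd_card h27
      rw [hT9] at h1
      norm_num at h1
    have hm1 : O.ncard = 1 := by
      have hpos : 0 < O.ncard := (Set.ncard_pos (Set.toFinite _)).2 ⟨⟨b, hbT⟩, 1, one_mem _, by simp⟩
      by_contra hne
      -- a Sylow 2-subgroup of order at least four through `t`
      have hd4 : 2 ^ 2 ∣ Nat.card N := by
        have hm24 : 2 ∣ O.ncard := by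
          omega
        obtain ⟨i, hi⟩ := hm24
        exact ⟨9 * i, by rw [hNcard, hi]; ring⟩
      have htN : t ∈ N := hCN (Subgroup.mem_centralizer_singleton_iff.2 hbt.symm)
      have hp2 : IsPGroup 2 (Subgroup.zpowers (⟨t, htN⟩ : N)) := IsPGroup.of_card (n := 1)
        (by rw [Nat.card_zpowers, Subgroup.orderOf_mk, pow_one, c.order_two ht ht1])
      obtain ⟨T2, hT2⟩ := hp2.exists_le_sylow
      have hexp : ∀ a ∈ (T2 : Subgroup N), (a : G) * a = 1 := by
        intro a ha
        obtain ⟨i, hi⟩ := IsPGroup.iff_orderOf.1 T2.isPGroup' ⟨a, ha⟩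
        rw [Subgroup.orderOf_mk, ← Subgroup.orderOf_coe] at hi
        rw [← pow_two]
        exact c.two.sq_eq_one hi
      have hTC : (T2 : Subgroup N) ≤ C.subgroupOf N := by
        intro a ha
        show (a : G) ∈ C
        have hat : (a : G) * t = t * a := by
          have hh := hexp _ (mul_mem ha (hT2 (Subgroup.mem_zpowers _)))
          simp only [Subgroup.coe_mul] at hh
          have ha2 := hexp a ha
          calc (a : G) * t = (a : G)⁻¹ * (((a : G) * a) * t) := by group
            _ = (a : G)⁻¹ * t := by rw [ha2, one_mul]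
            _ = (a : G) * t := by rw [inv_eq_of_mul_eq_one_right ha2]
            _ = ((a : G) * t) * (((a : G) * t) * ((a : G) * t))⁻¹ := by rw [hh, inv_one, mul_one]
            _ = t⁻¹ * (a : G)⁻¹ := by group
            _ = t * a := by rw [inv_eq_of_mul_eq_one_right ha2, inv_eq_of_mul_eq_one_right (c.sq ht)]
        set y := (a : G) * b * (a : G)⁻¹ with hy
        have hyT : y ∈ (T : Subgroup G) := CoprimeAction.conj_mem a.2 hbT
        have hyb : y * b = b * y := hcomm9 (hcard9 T).1 _ hyT _ hbT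
        have hyt : y * t = t * y := by
          calc y * t = (a : G) * b * ((a : G)⁻¹ * (t * (a : G))) * (a : G)⁻¹ := by rw [hy]; group
            _ = (a : G) * b * t * (a : G)⁻¹ := by rw [← hat, inv_mul_cancel_left]
            _ = (a : G) * (t * b) * (a : G)⁻¹ := by rw [mul_assoc (a : G), hbt]
            _ = t * y := by rw [hy, ← mul_assoc, hat]; group
        have hyM : y ∈ c.M := c.centralizer_le_M ht ht1 (Subgroup.mem_centralizer_singleton_iff.2 hyt)
        obtain ⟨i, hi⟩ := Subgroup.mem_zpowers_iff.1 (hCM y hyM hyb)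
        have hy3 : y ^ 3 = 1 := by rw [hy, conj_pow, hbp1]; simp
        have hyB : y ∈ Subgroup.zpowers b := by
          have h4 : y = ((t * b) ^ i) ^ 4 := by
            rw [hi, show (4 : ℕ) = 3 + 1 by norm_num, pow_succ, hy3, one_mul]
          rw [h4, ← zpow_natCast, ← zpow_mul, (show Commute t b from hbt.symm).mul_zpow]
          rw [show t ^ (i * ((4 : ℕ) : ℤ)) = 1 by
            rw [mul_comm i, zpow_mul, zpow_natCast, show (4 : ℕ) = 2 * 2 by norm_num, pow_mul, pow_two t, c.sq ht,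
              one_pow, one_zpow], one_mul]
          exact zpow_mem (Subgroup.mem_zpowers b) _
        have h5 : ((a : G)⁻¹)⁻¹ * b * (a : G)⁻¹ = y := by rw [inv_inv]
        have h6 := hNb ((a : G)⁻¹) (by rw [h5]; exact hyB)
        rw [h5, hy, mul_inv_eq_iff_eq_mul] at h6
        exact Subgroup.mem_centralizer_singleton_iff.2 h6
      have h4 := (T2.pow_dvd_card_of_pow_dvd_card hd4).trans (Subgroup.card_dvd_of_le hTC)
      rw [Nat.card_congr (Subgroup.subgroupOfEquivOfLe hCN).toEquiv, hC18] at h4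
      norm_num at h4
    intro n hn
    have hmem : (⟨n, hn⟩ : N) • (⟨b, hbT⟩ : ↥(T : Subgroup G)) = ⟨b, hbT⟩ := by
      obtain ⟨y, hy⟩ := Set.ncard_eq_one.1 hm1
      have h1 : (⟨n, hn⟩ : N) • (⟨b, hbT⟩ : ↥(T : Subgroup G)) ∈ O := horb ▸ MulAction.mem_orbit _ _
      have h2 : (⟨b, hbT⟩ : ↥(T : Subgroup G)) ∈ O := ⟨1, one_mem _, by simp⟩
      rw [hy, Set.mem_singleton_iff] at h1 h2
      rw [h1, h2]
    exact Subgroup.mem_centralizer_singleton_iff.2 (mul_inv_eq_iff_eq_mul.1 (congrArg Subtype.val hmem))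
  -- nine points
  push Not at h9
  subst hp3
  haveI : Fact (Nat.Prime 3) := ⟨Nat.prime_three⟩
  have hrp : r.Prime := by
    have : (2 ^ r - 1).Prime := by rw [← hr]; simpa using d.hq
    exact (Nat.prime_of_pow_sub_one_prime (by omega) this).2
  have hr3' : r = 3 := by
    have h : (2 ^ r + 1) % 9 = 0 := by
      rw [← hr]; exact Nat.mod_eq_zero_of_dvd (by simpa [add_assoc] using h9)
    have hper : (2 ^ r) % 9 = (2 ^ (r % 6)) % 9 := by
      conv_lhs => rw [← Nat.div_add_mod r 6, pow_add, pow_mul, Nat.mul_mod, Nat.pow_mod]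
      norm_num
    have h6 : r % 6 < 6 := Nat.mod_lt _ (by norm_num)
    have h3r : 3 ∣ r := by
      have : r % 6 = 3 := by
        interval_cases hh : r % 6 <;> omega
      omega
    exact ((Nat.prime_dvd_prime_iff_eq Nat.prime_three hrp).1 h3r).symm
  have hq7 : d.q = 7 := by rw [hr3'] at hr; omega
  have hpts : Nat.card (G ⧸ c.M) = 9 := by rw [c.card_points d, hq7]
  have hP27 : Nat.card ↥(P : Subgroup G) = 27 := by
    have hd27 : 3 ^ 3 ∣ Nat.card G := by rw [hG, hq7]; norm_num
    refine Nat.dvd_antisymm ?_ (by simpa using P.pow_dvd_card_of_pow_dvd_card hd27)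
    rw [hq7] at hPdvd
    simpa using hPdvd
  -- every element of `G` fixing a point has its 3-part of order at most three
  have hMcard : Nat.card c.M = 168 := by rw [c.card_M_of_fix d, hq7]
  have hptstab : ∀ v : G ⧸ c.M, Nat.card ↥(MulAction.stabilizer (P : Subgroup G) v) ≤ 3 := by
    intro v
    obtain ⟨g, rfl⟩ := MulAction.exists_smul_eq G c.pt v
    let f : MulAction.stabilizer (P : Subgroup G) (g • c.pt) → c.M := fun a => ⟨g⁻¹ * ((a : (P : Subgroup G)) : G) * g,
      c.smul_pt_iff.1 (by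
        rw [mul_smul, mul_smul, show (((a : (P : Subgroup G)) : G)) • g • c.pt = g • c.pt from a.2, inv_smul_smul])⟩
    let F : MulAction.stabilizer (P : Subgroup G) (g • c.pt) →* c.M :=
      { toFun := f
        map_one' := Subtype.ext (by simp [f])
        map_mul' := fun a a' => Subtype.ext (by simp [f, mul_assoc]) }
    have hF : Function.Injective F := fun a a' h => Subtype.ext (Subtype.ext
      (mul_left_cancel (mul_right_cancel (congrArg Subtype.val h))))
    have h1 : Nat.card (MulAction.stabilizer (P : Subgroup G) (g • c.pt)) ∣ 168 := by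
      rw [← hMcard, Nat.card_congr (MonoidHom.ofInjective hF).toEquiv]
      exact Subgroup.card_subgroup_dvd_card _
    have h2 : Nat.card (MulAction.stabilizer (P : Subgroup G) (g • c.pt)) ∣ 27 := hP27 ▸ Subgroup.card_subgroup_dvd_card _
    exact Nat.le_of_dvd (by norm_num) ((Nat.dvd_gcd h1 h2).trans (by norm_num))
  have htrans : ∀ v : G ⧸ c.M, ∃ s ∈ (P : Subgroup G), s • c.pt = v := by
    intro v
    have h1 := Subgroup.card_mul_index (MulAction.stabilizer (P : Subgroup G) c.pt)
    rw [MulAction.index_stabilizer, hP27] at h1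
    have h2 := hptstab c.pt
    have h9' : 9 ≤ (MulAction.orbit (P : Subgroup G) c.pt).ncard := by nlinarith
    have hu : MulAction.orbit (P : Subgroup G) c.pt = Set.univ :=
      Set.eq_of_subset_of_ncard_le (Set.subset_univ _) (by rw [Set.ncard_univ, hpts]; exact h9') Set.finite_univ
    obtain ⟨s, hs⟩ := (hu ▸ Set.mem_univ v : v ∈ MulAction.orbit (P : Subgroup G) c.pt)
    exact ⟨s, s.2, hs⟩
  have hstabpt : ∀ a ∈ (P : Subgroup G), a • c.pt = c.pt → a ∈ Subgroup.zpowers b := by
    intro a ha hap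
    have hbst : Subgroup.zpowers (⟨b, hbPm⟩ : ↥(P : Subgroup G)) = MulAction.stabilizer (P : Subgroup G) c.pt :=
      Subgroup.eq_of_le_of_card_ge ((Subgroup.zpowers_le).2 (MulAction.mem_stabilizer_iff.2 (c.smul_pt_iff.2 hb.1)))
        (by rw [Nat.card_zpowers, Subgroup.orderOf_mk, hbp]; exact hptstab c.pt)
    obtain ⟨i, hi⟩ := Subgroup.mem_zpowers_iff.1
      (hbst ▸ (MulAction.mem_stabilizer_iff.2 hap : (⟨a, ha⟩ : ↥(P : Subgroup G)) ∈ MulAction.stabilizer (P : Subgroup G) c.pt))
    exact ⟨i, by simpa using congrArg Subtype.val hi⟩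
  refine crit P hbPm (fun h => hb1 ?_) fun g hg => ?_
  · -- `b` is not in the derived group: else it is central, and fixes every point
    haveI : Nontrivial ↥(P : Subgroup G) :=
      (Finite.one_lt_card_iff_nontrivial (α := ↥(P : Subgroup G))).1 (by rw [hP27]; norm_num)
    haveI := P.isPGroup'.center_nontrivial
    have hcentral : (⟨b, hbPm⟩ : ↥(P : Subgroup G)) ∈ Subgroup.center ↥(P : Subgroup G) := by
      have hder : commutator ↥(P : Subgroup G) ≤ Subgroup.center ↥(P : Subgroup G) := by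
        set Z := Subgroup.center ↥(P : Subgroup G)
        have hZ : 3 ∣ Nat.card Z := by
          obtain ⟨i, hi⟩ := IsPGroup.iff_card.1 (P.isPGroup'.to_subgroup Z)
          have h1 := Finite.one_lt_card (α := Z)
          rw [hi] at h1 ⊢
          exact dvd_pow_self 3 (by rintro rfl; simp at h1)
        obtain ⟨j, hj⟩ := hZ
        have hq9 : Nat.card (↥(P : Subgroup G) ⧸ Z) ∣ 3 ^ 2 := by
          have h1 := Subgroup.card_mul_index Z
          rw [hP27, hj, Subgroup.index_eq_card, show (27 : ℕ) = 3 * 3 ^ 2 by norm_num, mul_assoc] at h1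
          exact Dvd.intro_left _ (Nat.eq_of_mul_eq_mul_left (by norm_num) h1)
        have hcomm : ∀ a a' : ↥(P : Subgroup G) ⧸ Z, a * a' = a' * a := by
          obtain ⟨i, hi, hKi⟩ := (Nat.dvd_prime_pow Nat.prime_three).1 hq9
          interval_cases i
          · haveI := (Nat.card_eq_one_iff_unique.1 (hKi.trans (pow_zero 3))).1
            exact fun a a' => Subsingleton.elim _ _
          · haveI : IsCyclic (↥(P : Subgroup G) ⧸ Z) := isCyclic_of_prime_card (hKi.trans (pow_one 3))
            exact fun a a' => IsMulCommutative.is_comm.comm a a'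
          · letI := IsPGroup.commGroupOfCardEqPrimeSq hKi
            exact fun a a' => mul_comm a a'
        rw [commutator_def, Subgroup.commutator_le]
        intro a _ a' _
        rw [← QuotientGroup.eq_one_iff]
        show QuotientGroup.mk' Z ⁅a, a'⁆ = 1
        rw [map_commutatorElement, commutatorElement_eq_one_iff_mul_comm]
        exact hcomm _ _
      exact hder ((QuotientGroup.eq_one_iff _).1 h)
    have hall : ∀ v : G ⧸ c.M, b • v = v := by
      intro v
      obtain ⟨s, hs, rfl⟩ := htrans v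
      have hsb : s * b = b * s := congrArg Subtype.val (Subgroup.mem_center_iff.1 hcentral ⟨s, hs⟩)
      rw [← mul_smul, ← hsb, mul_smul, c.smul_pt_iff.2 hb.1]
    exact c.faithful.eq_of_smul_eq_smul fun v => by rw [hall v, one_smul]
  · -- a conjugate of `b` in `P` fixes a point
    have hfixv : (g⁻¹ * b * g) • (g⁻¹ • c.pt) = g⁻¹ • c.pt := by
      rw [← mul_smul, mul_inv_cancel_right, mul_smul, c.smul_pt_iff.2 hb.1]
    obtain ⟨s, hs, hsv⟩ := htrans (g⁻¹ • c.pt)
    refine ⟨s, hs, ?_⟩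
    have h1 : s⁻¹ * (g⁻¹ * b * g) * s ∈ Subgroup.zpowers b := by
      refine hstabpt _ (mul_mem (mul_mem (inv_mem hs) hg) hs) ?_
      rw [mul_smul, mul_smul, hsv, hfixv, ← hsv, inv_smul_smul]
    have h2 := hNb (g * s) (by
      rw [show (g * s)⁻¹ * b * (g * s) = s⁻¹ * (g⁻¹ * b * g) * s by group]; exact h1)
    calc g⁻¹ * b * g = s * ((g * s)⁻¹ * b * (g * s)) * s⁻¹ := by group
      _ = s * b * s⁻¹ := by rw [h2]

include c in
theorem ctx_outcome (hoc : OC G) : Outcome G := by
  by_cases hW : c.W = ⊥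
  · exact cit_outcome c.nonab hoc (c.cit_of_noFix c.not_fix hW)
  · exact c.outcome_of_noFix hoc c.not_fix hW

end Ctx

end CfsgLib.OneComposite
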