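import Cfsg.Agent.Lib.OneComposite.Structure

/-!
The group induced on the Sylow 2-subgroup is regular on involutions or a Frobenius group of order `q p`.
-/

set_option autoImplicit false
set_option linter.style.haveILetI false

open Cfsg
open scoped Pointwise

namespace CfsgLib.OneComposite

namespace Ctx

variable {G : Type*} [Group G] [Finite G] {p : ℕ} (c : Ctx G p)

/-- `H` acts freely on the involutions of `E`. -/
def NoFix : Prop := ∀ h ∈ c.H, ∀ e : ↥(c.E : Subgroup G), e ≠ 1 → h e = e → h = 1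

/-- The data of the non-free case. -/
structure FixData where
  q : ℕ
  hq : q.Prime
  hqp : q ≠ p
  W_bot : c.W = ⊥
  card_E : Nat.card ↥(c.E : Subgroup G) = q + 1
  card_H : Nat.card c.H = q * p
  uniq : ∀ x ∈ c.H, ∀ z ∈ c.H, orderOf x = q → orderOf z = q → x ∈ Subgroup.zpowers z
  two_fix : ∀ h ∈ c.H, h ≠ 1 → ∀ e e' : ↥(c.E : Subgroup G), e ≠ 1 → e' ≠ 1 → h e = e → h e' = e' → e' = e

/-- The action as a map onto `H`. -/
def res : c.M →* c.H := c.act.rangeRestrict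

theorem res_surjective : Function.Surjective c.res := c.act.rangeRestrict_surjective

theorem coe_res (n : c.M) : (c.res n : MulAut ↥(c.E : Subgroup G)) = c.act n := rfl

theorem E_ne_one : ∃ e : ↥(c.E : Subgroup G), e ≠ 1 := by
  obtain ⟨e, he, he1⟩ := c.exists_ne_one
  exact ⟨⟨e, he⟩, fun h => he1 (congrArg Subtype.val h)⟩

theorem E_nontrivial : Nontrivial ↥(c.E : Subgroup G) :=
  let ⟨e, he⟩ := c.E_ne_one; ⟨e, 1, he⟩

theorem fpf_of_order_ne {h : MulAut ↥(c.E : Subgroup G)} (hh : h ∈ c.H) (h1 : h ≠ 1) (hne : orderOf h ≠ p)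
    (e : ↥(c.E : Subgroup G)) (he : h e = e) : e = 1 := by
  by_contra e1
  exact hne (c.H_order_fix hh h1 he e1)

theorem mem_zpowers_of_commute {l : ℕ} (hl : l ≠ p) {z g : MulAut ↥(c.E : Subgroup G)} (hz : z ∈ c.H)
    (hg : g ∈ c.H) (hzl : orderOf z = l) (hz1 : z ≠ 1) (hc : g * z = z * g) : g ∈ Subgroup.zpowers z := by
  by_contra hne
  have hg1 : g ≠ 1 := fun e => hne (e ▸ one_mem _)
  have hlp : l.Prime := hzl ▸ (c.H_order hz hz1).1
  have hgl : orderOf g = l := (c.H_commute hg hz hg1 hz1 hc).trans hzl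
  have hcl : Subgroup.closure ({g, z} : Set (MulAut ↥(c.E : Subgroup G))) ≤
      c.H ⊓ Subgroup.centralizer {z} := by
    rw [Subgroup.closure_le]
    rintro x (rfl | rfl)
    · exact ⟨hg, Subgroup.mem_centralizer_singleton_iff.2 hc⟩
    · exact ⟨hz, Subgroup.mem_centralizer_singleton_iff.2 rfl⟩
  haveI := c.E_nontrivial
  refine no_elementary c.E_comm hlp (c.E_coprime hlp (hzl ▸ (c.H_order hz hz1).2.1))
    (hgl ▸ pow_orderOf_eq_one g) (hzl ▸ pow_orderOf_eq_one z) hz1 hc hne fun x hx hx1 a ha => ?_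
  obtain ⟨hxH, hxc⟩ := hcl hx
  refine c.fpf_of_order_ne hxH hx1 ?_ a ha
  rw [c.H_commute hxH hz hx1 hz1 (Subgroup.mem_centralizer_singleton_iff.1 hxc), hzl]
  exact hl

/-- Elements of `M` acting trivially on `E` lie in `E W`. -/
theorem act_ker_le [IsSimpleGroup G] {n : c.M} (hn : c.act n = 1) : (n : G) ∈ (c.E : Subgroup G) ⊔ c.W := by
  have hc := (c.act_eq_one_iff n).1 hn
  rcases c.two.2.2 (n : G) with h | h | h
  · rw [orderOf_eq_one_iff.1 h]; exact one_mem _
  · rcases h.eq_two_or_odd' with h2 | ho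
    · exact (le_sup_left : (c.E : Subgroup G) ≤ _) (c.mem_E_of_two_elt n.2 h2)
    · exact (le_sup_right : c.W ≤ _) (c.mem_W_of_odd ho hc)
  · have hp0 := c.two.prime.pos
    obtain ⟨k, hk⟩ : ∃ k, p = 2 * k + 1 := c.two.odd
    have h2 : orderOf ((n : G) ^ p) = 2 := by
      rw [orderOf_pow_of_dvd hp0.ne' (h ▸ dvd_mul_left p 2), h, Nat.mul_div_cancel _ hp0]
    have h3 : Odd (orderOf ((n : G) ^ 2)) := by
      rw [orderOf_pow_of_dvd (by norm_num) (h ▸ dvd_mul_right 2 p), h, Nat.mul_div_cancel_left _ (by norm_num)]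
      exact c.two.odd
    have hE := c.mem_E_of_two_elt (pow_mem n.2 p) h2
    have hW := c.mem_W_of_odd h3 fun e he => ((show Commute (n : G) e from hc e he).pow_left 2).eq
    have e : (n : G) ^ p = (n : G) * (n : G) ^ (2 * k) :=
      (congrArg (fun j => (n : G) ^ j) hk).trans (pow_succ' _ _)
    have : (n : G) = (n : G) ^ p * (((n : G) ^ 2) ^ k)⁻¹ := by rw [← pow_mul, e, mul_inv_cancel_right]
    rw [this]
    exact mul_mem ((le_sup_left : (c.E : Subgroup G) ≤ _) hE) ((le_sup_right : c.W ≤ _) (inv_mem (pow_mem hW k)))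

theorem not_isPGroup_of_fix [IsSimpleGroup G] {h₀ : MulAut ↥(c.E : Subgroup G)} (hh₀ : h₀ ∈ c.H) (h₀1 : h₀ ≠ 1)
    {e₀ : ↥(c.E : Subgroup G)} (he₀1 : e₀ ≠ 1) (he₀ : h₀ e₀ = e₀) : ¬ IsPGroup p c.H := by
  intro hP
  haveI := mulAut_finite (A := ↥(c.E : Subgroup G))
  haveI : Fact p.Prime := ⟨c.two.prime⟩
  obtain ⟨k, hk⟩ := IsPGroup.iff_card.1 hP
  obtain ⟨i, -, hi⟩ := (Nat.dvd_prime_pow c.two.prime).1 ((Dvd.intro _ (c.card_H he₀1)).trans hk.dvd)
  obtain ⟨r, hr3, hr⟩ := c.isPGroup_E_card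
  have h8 := c.rank
  have hi0 : 0 < i := by
    by_contra hh
    rw [show i = 0 by omega, pow_zero] at hi
    omega
  have hi1 : i = 1 := CfsgLib.Spectrum.eq_one_of_pow_add_one_eq_two_pow c.two.prime.two_le hi0
    (show p ^ i + 1 = 2 ^ r by omega)
  rw [hi1, pow_one] at hi
  let σ : Equiv.Perm {e : ↥(c.E : Subgroup G) // e ≠ 1} := Equiv.Perm.subtypePerm (MulAut.toPerm _ h₀) fun x => by
    show h₀ x ≠ 1 ↔ x ≠ 1
    simp
  have hσp : σ ^ p = 1 := by
    rw [Equiv.Perm.subtypePerm_pow]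
    refine Equiv.ext fun x => Subtype.ext ?_
    rw [Equiv.Perm.subtypePerm_apply]
    have : h₀ ^ p = 1 := orderOf_dvd_iff_pow_eq_one.1 (c.H_order_fix hh₀ h₀1 he₀ he₀1).dvd
    have h2 := congrArg (MulAut.toPerm _) this
    rw [map_pow, map_one] at h2
    exact congrArg (fun f : Equiv.Perm _ => f x.1) h2
  refine no_fix_of_card_prime c.two.prime hσp ?_ (fun hσ => h₀1 ?_) ⟨e₀, he₀1⟩ (Subtype.ext he₀)
  · rw [show {e : ↥(c.E : Subgroup G) // e ≠ 1} = ↥({(1 : ↥(c.E : Subgroup G))}ᶜ : Set _) from rfl,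
      Nat.card_coe_set_eq, Set.ncard_compl, Set.ncard_singleton, hi]
  · refine MulEquiv.ext fun x => ?_
    by_cases hx : x = 1
    · simp [hx]
    · exact congrArg Subtype.val (Equiv.ext_iff.1 hσ ⟨x, hx⟩)

/-- A minimal normal subgroup of `H` is not a `p`-group. -/
theorem pCore_p_eq_bot {h : MulAut ↥(c.E : Subgroup G)} (hh : h ∈ c.H) {q : ℕ} (hq : q.Prime) (hqp : q ≠ p)
    (hho : orderOf h = q) : pCore p c.H = ⊥ := by
  classical
  haveI := mulAut_finite (A := ↥(c.E : Subgroup G))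
  haveI : Fact p.Prime := ⟨c.two.prime⟩
  have hKp : IsPGroup p (pCore p c.H) := CfsgLib.Cores.isPGroup_pCore p c.H
  set K := (pCore p c.H).map c.H.subtype with hK
  have hKH : K ≤ c.H := Subgroup.map_subtype_le _
  have hnotK : ∀ x : c.H, (x : MulAut ↥(c.E : Subgroup G)) = h → x ∉ pCore p c.H := by
    intro x hx hm
    obtain ⟨k, hk⟩ := IsPGroup.iff_orderOf.1 hKp ⟨x, hm⟩
    rw [Subgroup.orderOf_mk, ← Subgroup.orderOf_coe, hx, hho] at hk
    exact hqp ((Nat.prime_dvd_prime_iff_eq hq c.two.prime).1 (hq.dvd_of_dvd_pow hk.dvd))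
  have hord : ∀ k ∈ K, orderOf (k * h) = q ∧ k * h ≠ 1 := by
    rintro _ ⟨k, hk, rfl⟩
    set f := QuotientGroup.mk' (pCore p c.H)
    have hf : f (k * ⟨h, hh⟩) = f ⟨h, hh⟩ := by
      rw [map_mul, show f k = 1 from (QuotientGroup.eq_one_iff k).2 hk, one_mul]
    have hf1 : f ⟨h, hh⟩ ≠ 1 := fun e => hnotK ⟨h, hh⟩ rfl ((QuotientGroup.eq_one_iff _).1 e)
    have hfo : orderOf (f ⟨h, hh⟩) = q :=
      ((Nat.dvd_prime hq).1 ((orderOf_map_dvd f _).trans
        (by rw [Subgroup.orderOf_mk, hho]))).resolve_left fun e => hf1 (orderOf_eq_one_iff.1 e)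
    have hne : (k : MulAut ↥(c.E : Subgroup G)) * h ≠ 1 := fun e => hf1 (by
      rw [← hf, show k * ⟨h, hh⟩ = (1 : c.H) from Subtype.ext e, map_one])
    refine ⟨?_, hne⟩
    have hd : q ∣ orderOf ((k : MulAut ↥(c.E : Subgroup G)) * h) := by
      rw [← hfo, ← hf, show (k : MulAut ↥(c.E : Subgroup G)) * h = ((k * ⟨h, hh⟩ : c.H) : MulAut ↥(c.E : Subgroup G)) from rfl,
        Subgroup.orderOf_coe]
      exact orderOf_map_dvd f _
    exact ((Nat.prime_dvd_prime_iff_eq hq (c.H_order (mul_mem k.2 hh) hne).1).1 hd).symm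
  have hbot : K = ⊥ := by
    refine eq_bot_of_fpf_coset c.E_comm (y := h) hq (hho ▸ pow_orderOf_eq_one h) ?_ ?_ ?_ ?_ ?_
    · rintro _ ⟨k, hk, rfl⟩
      exact ⟨⟨h, hh⟩ * k * ⟨h, hh⟩⁻¹, (inferInstance : (pCore p c.H).Normal).conj_mem k hk _, rfl⟩
    · intro k hk hc
      by_contra k1
      have ho := c.H_commute (hKH hk) hh k1 (fun e => by rw [e, orderOf_one] at hho; exact hq.one_lt.ne hho) hc
      obtain ⟨i, hi⟩ := IsPGroup.iff_orderOf.1 (hKp.map c.H.subtype) ⟨k, hk⟩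
      rw [Subgroup.orderOf_mk, ho, hho] at hi
      exact hqp ((Nat.prime_dvd_prime_iff_eq hq c.two.prime).1 (hq.dvd_of_dvd_pow hi.dvd))
    · exact fun k hk => orderOf_dvd_iff_pow_eq_one.1 (hord k hk).1.dvd
    · exact fun k hk a ha => c.fpf_of_order_ne (mul_mem (hKH hk) hh) (hord k hk).2 ((hord k hk).1 ▸ hqp) a ha
    · obtain ⟨k, hk⟩ := IsPGroup.iff_card.1 hKp
      rw [hK, Subgroup.card_map_of_injective c.H.subtype_injective, hk]
      exact (c.E_coprime c.two.prime c.two.ne_two).symm.pow_left k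
  exact (Subgroup.map_eq_bot_iff_of_injective _ c.H.subtype_injective).1 hbot

/-- An element of order `p` of `M` normalising a cyclic lift `T` of `K` and lying over `h₀`. -/
theorem exists_normalizing_lift {K : Subgroup c.H} [K.Normal] {l : ℕ} (hl : l.Prime) (hlp : l ≠ p) (hl2 : l ≠ 2)
    (hKl : Nat.card K = l) {zh : c.M} (hzh : orderOf (zh : G) = l)
    (hzK : c.res zh ∈ K) {h₀ : c.H} (hh₀ : h₀ ∉ K) (hp : orderOf h₀ = p) :
    ∃ b : c.M, orderOf (b : G) = p ∧ (b : G) ∈ Subgroup.normalizer (Subgroup.zpowers (zh : G) : Set G) ∧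
      c.res b ∉ K := by
  classical
  haveI : Fact l.Prime := ⟨hl⟩
  haveI : Fact p.Prime := ⟨c.two.prime⟩
  set P0 := K.comap c.res with hP0
  set T := Subgroup.zpowers zh
  have hTP : T ≤ P0 := (Subgroup.zpowers_le).2 hzK
  have hTcard : Nat.card T = l := by rw [Nat.card_zpowers, ← Subgroup.orderOf_coe, hzh]
  haveI : P0.Normal := Subgroup.Normal.comap inferInstance _
  have hTrel : ¬ l ∣ T.relIndex P0 := by
    intro hd
    have hc := Subgroup.relIndex_mul_index hTP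
    have hi : P0.index = K.index := Subgroup.index_comap_of_surjective K c.res_surjective
    have hker : l ∣ Nat.card c.act.ker := by
      have h1 := Subgroup.card_mul_index P0
      have h2 := Subgroup.card_mul_index K
      have h3 : Nat.card c.M = Nat.card c.act.ker * Nat.card c.H := by
        rw [show Nat.card c.H = c.act.ker.index from (Subgroup.index_ker c.act).symm]
        exact (Subgroup.card_mul_index _).symm
      rw [h3, ← h2, hi, hKl, ← mul_assoc] at h1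
      have h4 : Nat.card P0 = Nat.card c.act.ker * l := Nat.eq_of_mul_eq_mul_right
        (Nat.pos_of_ne_zero Subgroup.index_ne_zero_of_finite) h1
      have h5 : Nat.card T * T.relIndex P0 = Nat.card P0 := by
        rw [← Nat.card_congr (Subgroup.subgroupOfEquivOfLe hTP).toEquiv]
        exact Subgroup.card_mul_index _
      rw [h4, hTcard, mul_comm (Nat.card c.act.ker) l] at h5
      exact (Nat.eq_of_mul_eq_mul_left hl.pos h5) ▸ hd
    obtain ⟨x, hx⟩ := exists_prime_orderOf_dvd_card' l hker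
    obtain ⟨e, he, he1⟩ := c.exists_ne_one
    have hxo : orderOf ((x : c.M) : G) = l := by rw [Subgroup.orderOf_coe, Subgroup.orderOf_coe, hx]
    rcases c.two.order_of_commute_involution (hxo ▸ hl) (c.order_two he he1)
      ((c.act_eq_one_iff _).1 x.2 e he) with h | h
    · exact hl2 (hxo ▸ h)
    · exact hlp (hxo ▸ h)
  obtain ⟨n, hn⟩ := c.res_surjective h₀
  have hfr := BGUniqueness.frattini_arg (p := l) (N := P0) (X := ⊤) le_top
    (by rw [Subgroup.normalizer_eq_top_iff.2 inferInstance]) hTP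
    (IsPGroup.of_card (n := 1) (by rw [pow_one, hTcard])) hTrel (Subgroup.mem_top n)
  have h : n ∈ (P0 : Set c.M) * (((⊤ : Subgroup c.M) ⊓ Subgroup.normalizer (T : Set c.M) : Subgroup c.M) : Set c.M) := by
    rw [← Subgroup.normal_mul]
    exact hfr
  obtain ⟨a, ha, b, hb, hab⟩ := h
  have hbK : c.res b ∉ K := by
    intro hbK
    refine hh₀ (hn ▸ ?_)
    rw [← hab, map_mul]
    exact mul_mem ha hbK
  have hpb : p ∣ orderOf (b : G) := by
    set f := QuotientGroup.mk' K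
    have hfb : f (c.res b) = f h₀ := by
      rw [← hn, ← hab]
      show _ = f (c.res (a * b))
      rw [map_mul, map_mul, show f (c.res a) = 1 from (QuotientGroup.eq_one_iff _).2 ha, one_mul]
    have hfo : orderOf (f h₀) = p := ((Nat.dvd_prime c.two.prime).1 ((orderOf_map_dvd f h₀).trans hp.dvd)).resolve_left
      fun e => hh₀ ((QuotientGroup.eq_one_iff _).1 (orderOf_eq_one_iff.1 e))
    refine hfo.symm.dvd.trans ?_
    rw [← hfb, Subgroup.orderOf_coe]
    exact (orderOf_map_dvd f _).trans (orderOf_map_dvd _ b)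
  have hb2p : orderOf (b : G) ∣ 2 * p := by
    rcases c.two.2.2 (b : G) with h | h | h
    · rw [h]; exact one_dvd _
    · rw [← (Nat.prime_dvd_prime_iff_eq c.two.prime h).1 hpb]; exact dvd_mul_left p 2
    · rw [h]
  obtain ⟨k, hk⟩ : ∃ k, p + 1 = 2 * k := ⟨(p + 1) / 2, by have := Nat.odd_iff.1 c.two.odd; omega⟩
  have hbpK : c.res (b ^ (p + 1)) ∉ K := by
    intro hh
    rw [map_pow] at hh
    refine hbK ?_
    have hodd : Odd (orderOf (c.res b)) := c.H_odd.of_dvd_nat (orderOf_dvd_natCard _)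
    have hd : orderOf (c.res b) ∣ p := Nat.Coprime.dvd_of_dvd_mul_left
      (Nat.coprime_two_right.2 hodd) ((orderOf_map_dvd _ b).trans ((Subgroup.orderOf_coe b) ▸ hb2p))
    rwa [pow_succ, orderOf_dvd_iff_pow_eq_one.1 hd, one_mul] at hh
  refine ⟨b ^ (p + 1), ?_, ?_, hbpK⟩
  · refine orderOf_eq_prime ?_ fun e => hbpK ?_
    · rw [SubmonoidClass.coe_pow, ← pow_mul]
      exact orderOf_dvd_iff_pow_eq_one.1 (hb2p.trans ⟨k, by rw [hk]; ring⟩)
    · rw [show b ^ (p + 1) = 1 from Subtype.ext e, map_one]; exact one_mem _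
  · rw [SubmonoidClass.coe_pow]
    refine pow_mem (CoprimeAction.mem_normalizer_of_conj_mem fun x hx => ?_) _
    obtain ⟨i, rfl⟩ := Subgroup.mem_zpowers_iff.1 hx
    obtain ⟨j, hj⟩ := Subgroup.mem_zpowers_iff.1
      (CoprimeAction.conj_mem hb.2 (zpow_mem (Subgroup.mem_zpowers zh) i))
    exact ⟨j, by simpa using congrArg Subtype.val hj⟩

theorem W_bot_of_fix [IsSimpleGroup G] {K : Subgroup c.H} [K.Normal] {l : ℕ} (hl : l.Prime) (hlp : l ≠ p)
    (hl2 : l ≠ 2) (hKl : Nat.card K = l) {h₀ : c.H} (hh₀ : h₀ ∉ K) (hp : orderOf h₀ = p) : c.W = ⊥ := by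
  classical
  haveI : Fact l.Prime := ⟨hl⟩
  haveI : Fact p.Prime := ⟨c.two.prime⟩
  obtain ⟨z, hz⟩ := exists_prime_orderOf_dvd_card' l hKl.symm.dvd
  rw [← Subgroup.orderOf_coe] at hz
  have hz1 : ((z : c.H) : MulAut ↥(c.E : Subgroup G)) ≠ 1 := fun e => hl.one_lt.ne (by
    rw [← hz, ← Subgroup.orderOf_coe, e, orderOf_one])
  obtain ⟨-, -, zh, hzh, hzho⟩ := c.H_order (z : c.H).2 hz1
  have hzz : orderOf ((z : c.H) : MulAut ↥(c.E : Subgroup G)) = l := (Subgroup.orderOf_coe (z : c.H)).trans hz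
  rw [hzz] at hzho
  have hrz : c.res zh = z := Subtype.ext hzh
  obtain ⟨b, hb, hbn, hbK⟩ := c.exists_normalizing_lift hl hlp hl2 hKl hzho (hrz ▸ z.2) hh₀ hp
  set T := Subgroup.zpowers (zh : G) with hT
  have hTM : T ≤ c.M := (Subgroup.zpowers_le).2 zh.2
  have hTcard : Nat.card T = l := by rw [hT, Nat.card_zpowers, hzho]
  have hMW : c.M ≤ Subgroup.normalizer (c.W : Set G) := c.normalizer_le_W
  have hTker : ∀ t (ht : t ∈ T), c.act ⟨t, hTM ht⟩ = 1 → t = 1 := by
    intro t ht h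
    by_contra t1
    obtain ⟨e, he, he1⟩ := c.exists_ne_one
    have hto : orderOf t = l := ((Nat.dvd_prime hl).1 (hTcard ▸ Subgroup.orderOf_dvd_natCard _ ht)).resolve_left
      fun h => t1 (orderOf_eq_one_iff.1 h)
    rcases c.two.order_of_commute_involution (hto ▸ hl) (c.order_two he he1) ((c.act_eq_one_iff _).1 h e he) with h | h
    · exact hl2 (hto ▸ h)
    · exact hlp (hto ▸ h)
  have hTK : ∀ t (ht : t ∈ T), c.res ⟨t, hTM ht⟩ ∈ K := by
    intro t ht
    obtain ⟨i, rfl⟩ := Subgroup.mem_zpowers_iff.1 ht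
    rw [show (⟨(zh : G) ^ i, hTM ht⟩ : c.M) = zh ^ i from Subtype.ext (by simp), map_zpow, hrz]
    exact zpow_mem z.2 i
  have hWcard : IsPGroup p c.W := c.W_pGroup
  have key := comm_of_norm_pGroup hWcard (K := T) (y := (b : G)) c.two.prime (orderOf_dvd_iff_pow_eq_one.1 hb.dvd)
    (fun t ht w hw => CoprimeAction.conj_mem (hMW (hTM ht)) hw) (fun w hw => CoprimeAction.conj_mem (hMW b.2) hw)
    (fun t ht => CoprimeAction.conj_mem hbn ht) ?_ ?_ ?_
  · rcases Subgroup.bot_or_exists_ne_one c.W with h | ⟨w, hw, hw1⟩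
    · exact h
    · exfalso
      obtain ⟨i, hi⟩ := IsPGroup.iff_orderOf.1 hWcard ⟨w, hw⟩
      rw [Subgroup.orderOf_mk] at hi
      have hwo : (orderOf w).Prime := c.two.prime_of_odd (hi ▸ c.two.odd.pow) hw1
      have hwp : orderOf w = p :=
        (Nat.prime_dvd_prime_iff_eq hwo c.two.prime).1 (hwo.dvd_of_dvd_pow hi.dvd)
      rcases c.two.commute_orders (hzho ▸ hl) hwo (by rw [hzho, hwp]; exact hlp)
        (key _ (Subgroup.mem_zpowers _) w hw) with h | h
      · exact hl2 (hzho ▸ h.1)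
      · exact c.two.ne_two (hwp ▸ h.2)
  · intro t ht hc
    by_contra t1
    have hne1 : c.act ⟨t, hTM ht⟩ ≠ 1 := fun e => t1 (hTker t ht e)
    have hb1 : c.act b ≠ 1 := fun e => hbK (by
      rw [show c.res b = 1 from Subtype.ext e]; exact one_mem _)
    have ho := c.H_commute (c.act_mem_H _) (c.act_mem_H b) hne1 hb1 (by
      rw [← map_mul, ← map_mul]
      exact congrArg c.act (Subtype.ext hc))
    have h1 : orderOf (c.act ⟨t, hTM ht⟩) ∣ l := (orderOf_map_dvd c.act _).trans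
      (by rw [Subgroup.orderOf_mk]; exact hTcard ▸ Subgroup.orderOf_dvd_natCard _ ht)
    have h2 : orderOf (c.act b) ∣ p := (orderOf_map_dvd c.act b).trans (by rw [← Subgroup.orderOf_coe, hb])
    rw [← ho] at h2
    exact hne1 (orderOf_eq_one_iff.1 (Nat.eq_one_of_dvd_coprimes ((Nat.coprime_primes hl c.two.prime).2 hlp) h1 h2))
  · obtain ⟨i, hi⟩ := IsPGroup.iff_card.1 hWcard
    rw [hTcard, hi]
    exact ((Nat.coprime_primes hl c.two.prime).2 hlp).pow_right i
  · intro t ht w hw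
    set S := c.W ⊔ T with hS
    have hbS : (b : G) ∈ Subgroup.normalizer (S : Set G) := by
      refine CoprimeAction.mem_normalizer_of_conj_mem fun x hx => ?_
      have hle : S.map (MulAut.conj (b : G)).toMonoidHom ≤ S := by
        rw [hS, Subgroup.map_sup]
        refine sup_le_sup ?_ ?_ <;> rintro _ ⟨a, ha, rfl⟩
        · exact CoprimeAction.conj_mem (hMW b.2) ha
        · exact CoprimeAction.conj_mem hbn ha
      exact hle ⟨x, hx, rfl⟩
    set x := w * (t * (b : G)) with hx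
    have hpow : ∀ i : ℕ, ∃ m ∈ S, x ^ i = m * (b : G) ^ i := by
      intro i
      induction i with
      | zero => exact ⟨1, one_mem _, by simp⟩
      | succ i ih =>
        obtain ⟨m, hm, he⟩ := ih
        refine ⟨m * ((b : G) ^ i * (w * t) * ((b : G) ^ i)⁻¹), mul_mem hm
          (CoprimeAction.conj_mem (pow_mem hbS i) (mul_mem ((le_sup_left : c.W ≤ S) hw) ((le_sup_right : T ≤ S) ht))), ?_⟩
        rw [pow_succ, he, hx, pow_succ]
        group
    have hWM : c.W ≤ c.M := c.M0_eq ▸ le_sup_left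
    have hxM : x ∈ c.M := mul_mem (hWM hw) (mul_mem (hTM ht) b.2)
    have hWker : ∀ w (hw : w ∈ c.W), c.act ⟨w, hWM hw⟩ = 1 := fun w hw =>
      (c.act_eq_one_iff _).2 fun e he => (c.W_comm_E he hw).symm
    have hpx : p ∣ orderOf x := by
      have hbo : orderOf (c.res b) = p :=
        ((Nat.dvd_prime c.two.prime).1 ((orderOf_map_dvd _ b).trans (by rw [← Subgroup.orderOf_coe, hb]))).resolve_left
          fun e => hbK (by rw [orderOf_eq_one_iff.1 e]; exact one_mem _)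
      set f := (QuotientGroup.mk' K).comp c.res
      have hfx : f ⟨x, hxM⟩ = f b := by
        rw [show (⟨x, hxM⟩ : c.M) = ⟨w, hWM hw⟩ * (⟨t, hTM ht⟩ * b) from Subtype.ext rfl, map_mul, map_mul,
          show f ⟨t, hTM ht⟩ = 1 from (QuotientGroup.eq_one_iff _).2 (hTK t ht),
          show f ⟨w, hWM hw⟩ = 1 from (QuotientGroup.eq_one_iff _).2 (by
            rw [show c.res ⟨w, hWM hw⟩ = 1 from Subtype.ext (hWker w hw)]
            exact one_mem _), one_mul, one_mul]
      have hfo : orderOf (f b) = p := ((Nat.dvd_prime c.two.prime).1 ((orderOf_map_dvd (QuotientGroup.mk' K) _).trans hbo.dvd)).resolve_left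
        fun e => hbK ((QuotientGroup.eq_one_iff _).1 (orderOf_eq_one_iff.1 e))
      rw [← hfo, ← hfx, ← Subgroup.orderOf_mk x hxM]
      exact orderOf_map_dvd f _
    rcases c.two.2.2 x with h | h | h
    · rw [h, Nat.dvd_one] at hpx
      exact absurd hpx c.two.prime.one_lt.ne'
    · rw [(Nat.prime_dvd_prime_iff_eq c.two.prime h).1 hpx, pow_orderOf_eq_one]
    · exfalso
      have h2 : orderOf (x ^ p) = 2 := by
        rw [orderOf_pow_of_dvd c.two.prime.ne_zero (h ▸ dvd_mul_left p 2), h, Nat.mul_div_cancel _ c.two.prime.pos]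
      have hxE : x ^ p ∈ (c.E : Subgroup G) := c.mem_E_of_two_elt (pow_mem hxM p) h2
      obtain ⟨m, hm, he⟩ := hpow p
      rw [show (b : G) ^ p = 1 from orderOf_dvd_iff_pow_eq_one.1 hb.dvd, mul_one] at he
      have hm' : m ∈ ((c.W : Subgroup G) : Set G) * (T : Set G) := by
        rw [← Subgroup.coe_mul_of_right_le_normalizer_left c.W T (hTM.trans hMW)]
        exact hm
      obtain ⟨a, ha, d, hd, had⟩ := hm'
      have hd1 : d = 1 := by
        refine hTker d hd ?_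
        have h1 : c.act ⟨x ^ p, pow_mem hxM p⟩ = 1 := (c.act_eq_one_iff _).2 fun e he => c.comm hxE he
        rw [show (⟨x ^ p, pow_mem hxM p⟩ : c.M) = ⟨a, hWM ha⟩ * ⟨d, hTM hd⟩ from Subtype.ext (he.trans had.symm),
          map_mul, hWker a ha, one_mul] at h1
        exact h1
      rw [he, ← had, hd1] at h2 hxE
      simp only [mul_one] at h2 hxE
      rw [c.W_inf_E ha hxE, orderOf_one] at h2
      omega

theorem fixData [IsSimpleGroup G] (hfix : ¬ c.NoFix) : Nonempty c.FixData := by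
  classical
  haveI := mulAut_finite (A := ↥(c.E : Subgroup G))
  haveI : Fact p.Prime := ⟨c.two.prime⟩
  haveI := c.H_solvable
  simp only [NoFix] at hfix
  push Not at hfix
  obtain ⟨g₀, hg₀, e₀, he₀1, he₀, hg₀1⟩ := hfix
  have hg₀p : orderOf g₀ = p := c.H_order_fix hg₀ hg₀1 he₀ he₀1
  obtain ⟨q', hq', hq'd, hq'p⟩ : ∃ q, q.Prime ∧ q ∣ Nat.card c.H ∧ q ≠ p := by
    by_contra hall
    push Not at hall
    exact c.not_isPGroup_of_fix hg₀ hg₀1 he₀1 he₀ (IsPGroup.of_card (n := (Nat.card c.H).primeFactorsList.length)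
      (Nat.eq_prime_pow_of_unique_prime_dvd Nat.card_pos.ne' fun {q} hq hqd => hall q hq hqd))
  haveI : Fact q'.Prime := ⟨hq'⟩
  obtain ⟨y, hy⟩ := exists_prime_orderOf_dvd_card' q' hq'd
  haveI : Nontrivial c.H := ⟨⟨g₀, hg₀⟩, 1, fun e => hg₀1 (congrArg Subtype.val e)⟩
  obtain ⟨l, hl, hlne⟩ := CfsgLib.Hall.exists_pCore_ne_bot (G := c.H)
  have hlp : l ≠ p := by
    rintro rfl
    exact hlne (c.pCore_p_eq_bot y.2 hq' hq'p (by rw [Subgroup.orderOf_coe, hy]))
  haveI : Fact l.Prime := ⟨hl⟩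
  set K := pCore l c.H
  have hKl : IsPGroup l K := CfsgLib.Cores.isPGroup_pCore l c.H
  have hKord : ∀ x : c.H, x ∈ K → x ≠ 1 → orderOf (x : MulAut ↥(c.E : Subgroup G)) = l := by
    intro x hx x1
    obtain ⟨i, hi⟩ := IsPGroup.iff_orderOf.1 hKl ⟨x, hx⟩
    rw [Subgroup.orderOf_mk, ← Subgroup.orderOf_coe] at hi
    have hp := (c.H_order x.2 fun e => x1 (Subtype.ext e)).1
    exact (Nat.prime_dvd_prime_iff_eq hp hl).1 (hp.dvd_of_dvd_pow hi.dvd)
  haveI : Nontrivial K := (Subgroup.nontrivial_iff_ne_bot _).2 hlne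
  haveI := hKl.center_nontrivial
  obtain ⟨⟨z, hz⟩, hz1⟩ := exists_ne (1 : Subgroup.center K)
  have hz1' : (z : c.H) ≠ 1 := fun e => hz1 (Subtype.ext (Subtype.ext e))
  have hz1'' : ((z : c.H) : MulAut ↥(c.E : Subgroup G)) ≠ 1 := fun e => hz1' (Subtype.ext e)
  have hzl : orderOf ((z : c.H) : MulAut ↥(c.E : Subgroup G)) = l := hKord z z.2 hz1'
  have hl2 : l ≠ 2 := hzl ▸ (c.H_order (z : c.H).2 hz1'').2.1
  have hKz : K = Subgroup.zpowers (z : c.H) := by
    refine le_antisymm (fun g hg => ?_) ((Subgroup.zpowers_le).2 z.2)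
    obtain ⟨i, hi⟩ := Subgroup.mem_zpowers_iff.1 (c.mem_zpowers_of_commute hlp (z : c.H).2 g.2 hzl hz1''
      (congrArg (fun a : K => ((a : c.H) : MulAut ↥(c.E : Subgroup G))) (Subgroup.mem_center_iff.1 hz ⟨g, hg⟩)))
    exact ⟨i, Subtype.ext (by simpa using hi)⟩
  have hKcard : Nat.card K = l := by rw [hKz, Nat.card_zpowers, ← Subgroup.orderOf_coe, hzl]
  let h₀ : c.H := ⟨g₀, hg₀⟩
  have hh₀K : h₀ ∉ K := fun h => hlp ((hKord h₀ h fun e => hg₀1 (congrArg Subtype.val e)).symm.trans hg₀p)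
  have hW : c.W = ⊥ := c.W_bot_of_fix hl hlp hl2 hKcard hh₀K (by rw [← Subgroup.orderOf_coe]; exact hg₀p)
  -- the order of `H`
  let ρ : c.H →* MulAut K := MulAut.conjNormal
  have hρ : ∀ g : c.H, ρ g = 1 → g ∈ K := by
    intro g hg
    have h1 : (ρ g z : c.H) = (z : c.H) := by rw [hg]; rfl
    rw [MulAut.conjNormal_apply, mul_inv_eq_iff_eq_mul] at h1
    obtain ⟨i, hi⟩ := Subgroup.mem_zpowers_iff.1
      (c.mem_zpowers_of_commute hlp (z : c.H).2 g.2 hzl hz1'' (congrArg Subtype.val h1))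
    exact hKz ▸ ⟨i, Subtype.ext (by simpa using hi)⟩
  have hker : ρ.ker = K := by
    refine le_antisymm (fun g hg => hρ g hg) fun g hg => MonoidHom.mem_ker.2 (MulEquiv.ext fun x => Subtype.ext ?_)
    rw [MulAut.conjNormal_apply, MulAut.one_apply]
    haveI : IsCyclic K := isCyclic_of_prime_card hKcard
    have := congrArg (fun a : K => (a : c.H)) (IsMulCommutative.is_comm.comm (⟨g, hg⟩ : K) x)
    rw [mul_inv_eq_iff_eq_mul]
    exact this
  haveI : IsCyclic K := isCyclic_of_prime_card hKcard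
  haveI : IsCyclic (MulAut K) := by
    haveI : IsCyclic (ZMod (Nat.card K))ˣ := ZMod.isCyclic_units_prime (hKcard ▸ hl)
    exact isCyclic_of_surjective (IsCyclic.mulAutMulEquiv K).symm.toMonoidHom (IsCyclic.mulAutMulEquiv K).symm.surjective
  obtain ⟨⟨r, g, rfl⟩, hr⟩ := IsCyclic.exists_ofOrder_eq_natCard (α := ρ.range)
  replace hr : orderOf (ρ g) = Nat.card ρ.range := (Subgroup.orderOf_coe (⟨ρ g, g, rfl⟩ : ρ.range)).trans hr
  have hpR : p ∣ Nat.card ρ.range := by
    have hd := orderOf_map_dvd ρ h₀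
    rw [← Subgroup.orderOf_coe, show ((h₀ : c.H) : MulAut ↥(c.E : Subgroup G)) = g₀ from rfl, hg₀p] at hd
    have h1 := ((Nat.dvd_prime c.two.prime).1 hd).resolve_left fun e =>
      hh₀K (hρ h₀ (orderOf_eq_one_iff.1 e))
    exact h1.symm.dvd.trans (Subgroup.orderOf_dvd_natCard _ ⟨h₀, rfl⟩)
  have hR : Nat.card ρ.range = p := by
    have hg1 : (g : MulAut ↥(c.E : Subgroup G)) ≠ 1 := by
      intro e
      rw [show g = 1 from Subtype.ext e, map_one, orderOf_one] at hr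
      rw [← hr, Nat.dvd_one] at hpR
      exact c.two.prime.one_lt.ne' hpR
    have hd := orderOf_map_dvd ρ g
    rw [hr, ← Subgroup.orderOf_coe] at hd
    rcases (Nat.dvd_prime (c.H_order g.2 hg1).1).1 hd with e | e
    · rw [e, Nat.dvd_one] at hpR
      exact absurd hpR c.two.prime.one_lt.ne'
    · rw [e] at hpR ⊢
      exact ((Nat.prime_dvd_prime_iff_eq c.two.prime (c.H_order g.2 hg1).1).1 hpR).symm
  have hH : Nat.card c.H = l * p := by
    rw [← Subgroup.card_mul_index ρ.ker, Subgroup.index_ker, hR, hker, hKcard]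
  have hstab : ∀ e : ↥(c.E : Subgroup G), e ≠ 1 → Nat.card (MulAction.stabilizer c.H e) = p ∧
      Nat.card ↥(c.E : Subgroup G) - 1 = l := by
    intro e he
    obtain ⟨g', hg', hge⟩ := c.H_transitive he₀1 he
    have hconj : p ∣ Nat.card (MulAction.stabilizer c.H e) := by
      have hm : (⟨g', hg'⟩ * h₀ * ⟨g', hg'⟩⁻¹ : c.H) ∈ MulAction.stabilizer c.H e := by
        rw [MulAction.mem_stabilizer_iff]
        show g' (g₀ ((g'⁻¹ : MulAut ↥(c.E : Subgroup G)) e)) = e
        rw [← hge, ← MulAut.mul_apply _ g'⁻¹ g', inv_mul_cancel, MulAut.one_apply, he₀]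
      have ho : orderOf (⟨g', hg'⟩ * h₀ * ⟨g', hg'⟩⁻¹ : c.H) = p := by
        refine (orderOf_injective (MulAut.conj (⟨g', hg'⟩ : c.H)).toMonoidHom (MulAut.conj _).injective h₀).trans ?_
        rw [← Subgroup.orderOf_coe]
        exact hg₀p
      exact ho.symm.dvd.trans (Subgroup.orderOf_dvd_natCard _ hm)
    have hc := c.card_H he
    rw [hH] at hc
    obtain ⟨s, hs⟩ := hconj
    rw [hs, ← mul_assoc, mul_comm _ p, mul_assoc, mul_comm l p] at hc
    have hc' := Nat.eq_of_mul_eq_mul_left c.two.prime.pos hc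
    have h8 := c.rank
    rcases (Nat.dvd_prime hl).1 (Dvd.intro _ hc') with h | h
    · omega
    · rw [h] at hc'
      rw [hs, (Nat.mul_eq_left hl.ne_zero).1 hc', mul_one]
      exact ⟨rfl, h⟩
  obtain ⟨-, hE⟩ := hstab e₀ he₀1
  have h8 := c.rank
  have hmemK : ∀ x : c.H, orderOf (x : MulAut ↥(c.E : Subgroup G)) = l → x ∈ K := by
    intro x hx
    refine hρ x (orderOf_eq_one_iff.1 (Nat.eq_one_of_dvd_coprimes ((Nat.coprime_primes hl c.two.prime).2 hlp)
      ((orderOf_map_dvd ρ x).trans ((Subgroup.orderOf_coe x).symm.trans hx).dvd) ?_))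
    exact (Subgroup.orderOf_dvd_natCard _ (show ρ x ∈ ρ.range from ⟨x, rfl⟩)).trans hR.dvd
  refine ⟨⟨l, hl, hlp, hW, by omega, hH, ?_, ?_⟩⟩
  · intro x hx w hw hxl hwl
    have heq : Subgroup.zpowers (⟨w, hw⟩ : c.H) = K := Subgroup.eq_of_le_of_card_ge
      ((Subgroup.zpowers_le).2 (hmemK ⟨w, hw⟩ hwl))
      (by rw [hKcard, Nat.card_zpowers, ← Subgroup.orderOf_coe]; exact hwl.ge)
    obtain ⟨i, hi⟩ := Subgroup.mem_zpowers_iff.1 (heq.symm ▸ hmemK ⟨x, hx⟩ hxl)
    exact ⟨i, by simpa using congrArg Subtype.val hi⟩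
  intro h hh h1 e e' he he' hhe hhe'
  have hho := c.H_order_fix hh h1 hhe he
  -- `K` is regular on the involutions
  obtain ⟨k, hk⟩ : ∃ k : K, ((k : c.H) : MulAut ↥(c.E : Subgroup G)) e = e' := by
    let φ : K → {x : ↥(c.E : Subgroup G) // x ≠ 1} := fun k => ⟨((k : c.H) : MulAut ↥(c.E : Subgroup G)) e, by simpa using he⟩
    have hφ : Function.Injective φ := by
      intro a b hab
      by_contra hne
      have h2 : ((a : c.H) : MulAut ↥(c.E : Subgroup G)) e = ((b : c.H) : MulAut ↥(c.E : Subgroup G)) e := congrArg Subtype.val hab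
      have h3 : (((b⁻¹ * a : K) : c.H) : MulAut ↥(c.E : Subgroup G)) e = e := by
        show ((b : c.H) : MulAut ↥(c.E : Subgroup G))⁻¹ (((a : c.H) : MulAut ↥(c.E : Subgroup G)) e) = e
        rw [h2, ← MulAut.mul_apply, inv_mul_cancel, MulAut.one_apply]
      have hne1 : ((b⁻¹ * a : K) : c.H) ≠ 1 := fun e' => hne (inv_mul_eq_one.1 (Subtype.ext e')).symm
      refine he (c.fpf_of_order_ne ((b⁻¹ * a : K) : c.H).2 (fun e' => hne1 (Subtype.ext e')) ?_ e h3)
      rw [hKord _ (b⁻¹ * a : K).2 hne1]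
      exact hlp
    have hcard : Nat.card K = Nat.card {x : ↥(c.E : Subgroup G) // x ≠ 1} := by
      rw [hKcard, show {x : ↥(c.E : Subgroup G) // x ≠ 1} = ↥({(1 : ↥(c.E : Subgroup G))}ᶜ : Set _) from rfl,
        Nat.card_coe_set_eq, Set.ncard_compl, Set.ncard_singleton, hE]
    obtain ⟨k, hk⟩ := ((Nat.bijective_iff_injective_and_card φ).2 ⟨hφ, hcard⟩).2 ⟨e', he'⟩
    exact ⟨k, congrArg Subtype.val hk⟩
  by_contra hne
  have hk1 : (k : c.H) ≠ 1 := fun e'' => hne (by rw [← hk, e'']; rfl)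
  let h' : c.H := ⟨h, hh⟩
  have hz' : Subgroup.zpowers h' = MulAction.stabilizer c.H e' := Subgroup.eq_of_le_of_card_ge
    ((Subgroup.zpowers_le).2 (MulAction.mem_stabilizer_iff.2 hhe'))
    (by rw [(hstab e' he').1, Nat.card_zpowers, ← Subgroup.orderOf_coe]; exact hho.ge)
  have hcm : (k : c.H) * h' * (k : c.H)⁻¹ ∈ Subgroup.zpowers h' := by
    rw [hz', MulAction.mem_stabilizer_iff]
    show ((k : c.H) : MulAut ↥(c.E : Subgroup G)) (h (((k : c.H) : MulAut ↥(c.E : Subgroup G))⁻¹ e')) = e'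
    rw [← hk, ← MulAut.mul_apply _ ((k : c.H) : MulAut ↥(c.E : Subgroup G))⁻¹, inv_mul_cancel, MulAut.one_apply, hhe]
  have hcomm : (k : c.H) * h' * (k : c.H)⁻¹ * h'⁻¹ = 1 := by
    set d := (k : c.H) * h' * (k : c.H)⁻¹ * h'⁻¹ with hd
    have hdK : d ∈ K := by
      rw [hd, mul_assoc, mul_assoc, ← mul_assoc h']
      exact mul_mem k.2 ((inferInstance : K.Normal).conj_mem _ (inv_mem k.2) h')
    have hdh : d ∈ Subgroup.zpowers h' := mul_mem hcm (inv_mem (Subgroup.mem_zpowers _))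
    refine orderOf_eq_one_iff.1 (Nat.eq_one_of_dvd_coprimes ((Nat.coprime_primes hl c.two.prime).2 hlp)
      (hKcard ▸ Subgroup.orderOf_dvd_natCard _ hdK) ?_)
    have := Subgroup.orderOf_dvd_natCard _ hdh
    rwa [Nat.card_zpowers, ← Subgroup.orderOf_coe h', show orderOf (h' : MulAut ↥(c.E : Subgroup G)) = p from hho] at this
  rw [mul_inv_eq_one, mul_inv_eq_iff_eq_mul] at hcomm
  have ho := c.H_commute (k : c.H).2 hh (fun e'' => hk1 (Subtype.ext e'')) h1 (congrArg Subtype.val hcomm)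
  rw [hKord _ k.2 hk1, hho] at ho
  exact hlp ho

theorem card_H_of_noFix [IsSimpleGroup G] (hn : c.NoFix) :
    Nat.card c.H = Nat.card ↥(c.E : Subgroup G) - 1 := by
  haveI := mulAut_finite (A := ↥(c.E : Subgroup G))
  obtain ⟨e, he⟩ := c.E_ne_one
  have h : MulAction.stabilizer c.H e = ⊥ := (Subgroup.eq_bot_iff_forall _).2 fun g hg =>
    Subtype.ext (hn g g.2 e he (MulAction.mem_stabilizer_iff.1 hg))
  rw [← c.card_H he, h, Subgroup.card_bot, mul_one]

theorem cit_of_noFix [IsSimpleGroup G] (hn : c.NoFix) (hW : c.W = ⊥) : CIT.IsCIT G := by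
  intro t ht
  haveI : Fact (Nat.Prime 2) := ⟨Nat.prime_two⟩
  obtain ⟨e, he, he1⟩ := c.exists_ne_one
  obtain ⟨g, hg⟩ := isConj_iff.1 (TwoFusion.isConj_involutions c.se ht (c.order_two he he1))
  have hC : Subgroup.centralizer ({e} : Set G) ≤ (c.E : Subgroup G) := by
    intro x hx
    have hxM : x ∈ c.M := c.centralizer_le_M he he1 hx
    have h1 : c.act ⟨x, hxM⟩ = 1 := hn _ (c.act_mem_H _) ⟨e, he⟩ (fun h => he1 (congrArg Subtype.val h))
      ((c.act_fix_iff _ _).2 (Subgroup.mem_centralizer_singleton_iff.1 hx))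
    have := c.act_ker_le h1
    rwa [hW, sup_bot_eq] at this
  refine (c.E.isPGroup'.comap_of_injective (MulAut.conj g).toMonoidHom (MulAut.conj g).injective).to_le fun x hx => ?_
  refine hC (Subgroup.mem_centralizer_singleton_iff.2 ?_)
  show g * x * g⁻¹ * e = e * (g * x * g⁻¹)
  rw [Subgroup.mem_centralizer_singleton_iff] at hx
  rw [← hg]
  calc g * x * g⁻¹ * (g * t * g⁻¹) = g * (x * t) * g⁻¹ := by group
    _ = g * (t * x) * g⁻¹ := by rw [hx]
    _ = _ := by group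

end Ctx

end CfsgLib.OneComposite
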