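import Cfsg.Agent.Lib.OneComposite.Basic
import Cfsg.Agent.Lib.OneComposite.Norm
import Cfsg.Agent.Lib.Balance.CentralizerCore
import Cfsg.Agent.Lib.CoprimeAction.Abelian
import Cfsg.Agent.Lib.BGUniqueness.Tools
import Cfsg.Agent.Lib.TwoFusion.StrongEmbed
import Cfsg.Agent.Lib.Spectrum.PowerArith
import Cfsg.Agent.S0217
import Cfsg.Agent.S0205

/-!
The local structure when the Sylow 2-subgroups are elementary abelian of order at least 8.
-/

set_option autoImplicit false
set_option linter.style.haveILetI false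

open Cfsg
open scoped Pointwise

namespace CfsgLib.OneComposite

/-- In a solvable group with abelian Sylow `p`-subgroup `P`, `O_{p'}(X) P` is normal. -/
theorem core_sup_sylow_normal {X : Type*} [Group X] [Finite X] {p : ℕ} [Fact p.Prime] [Group.IsSolvable X]
    (P : Sylow p X) (hP : ∀ a ∈ (P : Subgroup X), ∀ b ∈ (P : Subgroup X), a * b = b * a) :
    (pPrimeCore p X ⊔ (P : Subgroup X)).Normal := by
  set f := QuotientGroup.mk' (pPrimeCore p X) with hf
  have hsurj : Function.Surjective f := QuotientGroup.mk'_surjective _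
  haveI : Group.IsSolvable (X ⧸ pPrimeCore p X) := Group.isSolvable_of_surjective hsurj
  set Pb := P.mapSurjective hsurj
  have hle : pCore p (X ⧸ pPrimeCore p X) ≤ (Pb : Subgroup (X ⧸ pPrimeCore p X)) :=
    CfsgLib.Cores.pCore_le_sylow Pb
  have hge : (Pb : Subgroup (X ⧸ pPrimeCore p X)) ≤ pCore p (X ⧸ pPrimeCore p X) := by
    refine le_trans (fun x hx => ?_) (BGUniqueness.centralizer_pCore_le (Cores.pPrimeCore_quotient_pPrimeCore p))
    rw [Sylow.coe_mapSurjective] at hx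
    obtain ⟨a, ha, rfl⟩ := hx
    rw [Subgroup.mem_centralizer_iff]
    intro z hz
    have hz' := hle hz
    rw [Sylow.coe_mapSurjective] at hz'
    obtain ⟨b, hb, rfl⟩ := hz'
    rw [← map_mul, ← map_mul, hP b hb a ha]
  have heq : (pPrimeCore p X ⊔ (P : Subgroup X)) = (pCore p (X ⧸ pPrimeCore p X)).comap f := by
    rw [le_antisymm hle hge, Sylow.coe_mapSurjective, Subgroup.comap_map_eq, hf, QuotientGroup.ker_mk',
      sup_comm]
  rw [heq]
  infer_instance

/-- `q` elements: a set moved by an element of prime order has no fixed element if its size is that prime. -/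
theorem no_fix_of_card_prime {α : Type*} [Finite α] {σ : Equiv.Perm α} {s : ℕ} (hs : s.Prime)
    (hσ : σ ^ s = 1) (hcard : Nat.card α = s) (hne : σ ≠ 1) (a : α) : σ a ≠ a := by
  intro ha
  classical
  haveI := Fintype.ofFinite α
  haveI : Fact s.Prime := ⟨hs⟩
  have ho : orderOf σ = s := orderOf_eq_prime hσ hne
  obtain ⟨k, hk⟩ := Equiv.Perm.cycleType_prime_order (ho.symm ▸ hs)
  have hsum := σ.sum_cycleType
  rw [hk, Multiset.sum_replicate, ho, smul_eq_mul] at hsum
  have hsup : σ.support.card < Fintype.card α :=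
    Finset.card_lt_card ((Finset.ssubset_univ_iff).2 fun e =>
      (Equiv.Perm.mem_support.1 (e ▸ Finset.mem_univ a)) ha)
  rw [← hsum, ← Nat.card_eq_fintype_card, hcard] at hsup
  nlinarith [Nat.le_mul_of_pos_left s (Nat.succ_pos k)]

/-- The setting: elementary abelian Sylow 2-subgroup of order at least 8 in a simple group. -/
structure Ctx (G : Type*) [Group G] (p : ℕ) where
  two : Two G p
  E : Sylow 2 G
  rank : 8 ≤ Nat.card ↥(E : Subgroup G)
  nonab : ∃ a b : G, a * b ≠ b * a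

namespace Ctx

variable {G : Type*} [Group G] [Finite G] {p : ℕ} (c : Ctx G p)

/-- The odd core of an involution centraliser. -/
abbrev th (a : G) : Subgroup G := centralizerPPrimeCore 2 a

/-- The subgroup generated by the odd cores of the involution centralisers. -/
def W : Subgroup G := ⨆ a : {a : G // a ∈ (c.E : Subgroup G) ∧ a ≠ 1}, th (a : G)

theorem sq {a : G} (ha : a ∈ (c.E : Subgroup G)) : a * a = 1 := by
  haveI : Fact (Nat.Prime 2) := ⟨Nat.prime_two⟩
  obtain ⟨k, hk⟩ := IsPGroup.iff_orderOf.1 c.E.isPGroup' ⟨a, ha⟩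
  rw [Subgroup.orderOf_mk] at hk
  rw [← pow_two]
  exact c.two.sq_eq_one hk

theorem comm {a b : G} (ha : a ∈ (c.E : Subgroup G)) (hb : b ∈ (c.E : Subgroup G)) : a * b = b * a := by
  calc a * b = (b * b) * (a * b) * (a * a) := by rw [c.sq hb, c.sq ha, one_mul, mul_one]
    _ = b * ((b * a) * (b * a)) * a := by group
    _ = b * a := by rw [c.sq (mul_mem hb ha), mul_one]

theorem isMulCommutative : IsMulCommutative ↥(c.E : Subgroup G) :=
  ⟨⟨fun a b => Subtype.ext (c.comm a.2 b.2)⟩⟩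

theorem order_two {a : G} (ha : a ∈ (c.E : Subgroup G)) (ha1 : a ≠ 1) : orderOf a = 2 :=
  orderOf_eq_prime (by rw [pow_two, c.sq ha]) ha1

theorem not_cyclic : ¬ IsCyclic ↥(c.E : Subgroup G) := by
  intro h
  obtain ⟨g, hg⟩ := h.exists_ofOrder_eq_natCard
  have h2 : orderOf g ∣ 2 := orderOf_dvd_of_pow_eq_one (by rw [pow_two]; exact Subtype.ext (c.sq g.2))
  have := Nat.le_of_dvd (by norm_num) h2
  have := c.rank
  omega

theorem exists_ne_one : ∃ a ∈ (c.E : Subgroup G), a ≠ 1 := by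
  rcases Subgroup.bot_or_exists_ne_one (c.E : Subgroup G) with h | h
  · have := c.rank
    rw [h, Subgroup.card_bot] at this
    omega
  · exact h

theorem sylow_index : ¬ 2 ∣ (c.E : Subgroup G).index := by
  haveI : Fact (Nat.Prime 2) := ⟨Nat.prime_two⟩
  exact c.E.not_dvd_index

theorem th_conj (n a : G) :
    (th a).map (MulAut.conj n).toMonoidHom ≤ th (n * a * n⁻¹) := by
  refine Balance.le_centralizerPPrimeCore ?_ ?_ ?_
  · rintro _ ⟨x, hx, rfl⟩
    have hxa : x * a = a * x :=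
      Subgroup.mem_centralizer_singleton_iff.1 (Balance.centralizerPPrimeCore_le_centralizer 2 a hx)
    rw [Subgroup.mem_centralizer_singleton_iff]
    show n * x * n⁻¹ * (n * a * n⁻¹) = n * a * n⁻¹ * (n * x * n⁻¹)
    calc n * x * n⁻¹ * (n * a * n⁻¹) = n * (x * a) * n⁻¹ := by group
      _ = n * (a * x) * n⁻¹ := by rw [hxa]
      _ = _ := by group
  · intro g hg
    have hg' : n⁻¹ * g * n ∈ Subgroup.centralizer ({a} : Set G) := by
      rw [Subgroup.mem_centralizer_singleton_iff] at hg ⊢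
      calc n⁻¹ * g * n * a = n⁻¹ * (g * (n * a * n⁻¹)) * n := by group
        _ = n⁻¹ * (n * a * n⁻¹ * g) * n := by rw [hg]
        _ = _ := by group
    refine CfsgLib.CoprimeAction.mem_normalizer_of_conj_mem ?_
    rintro _ ⟨x, hx, rfl⟩
    refine ⟨n⁻¹ * g * n * x * (n⁻¹ * g * n)⁻¹,
      CoprimeAction.conj_mem (Balance.centralizer_le_normalizer_centralizerPPrimeCore 2 a hg') hx, ?_⟩
    show n * (n⁻¹ * g * n * x * (n⁻¹ * g * n)⁻¹) * n⁻¹ = g * (n * x * n⁻¹) * g⁻¹
    group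
  · rw [Subgroup.card_map_of_injective (MulAut.conj n).injective]
    exact Balance.coprime_card_centralizerPPrimeCore 2 a

theorem sft : ¬ 2 ∣ Nat.card ↥c.W ∧
    ∀ a ∈ (c.E : Subgroup G), a ≠ 1 → c.W ⊓ Subgroup.centralizer {a} = th a := by
  haveI : Fact (Nat.Prime 2) := ⟨Nat.prime_two⟩
  refine Cfsg.Agent.S0217.result (c.E : Subgroup G) (fun a ha b hb => c.comm ha hb)
    (fun a ha => by rw [pow_two, c.sq ha]) c.rank th
    (fun a _ _ => Balance.centralizerPPrimeCore_le_centralizer 2 a)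
    (fun a _ _ => Balance.not_dvd_card_centralizerPPrimeCore a)
    (fun a ha _ b hb x hx => CoprimeAction.conj_mem
      (Balance.centralizer_le_normalizer_centralizerPPrimeCore 2 a
        (Subgroup.mem_centralizer_singleton_iff.2 (c.comm hb ha))) hx)
    (fun a ha ha1 => by
      haveI := c.two.solvable_centralizer (Or.inl (c.order_two ha ha1))
      exact CoprimeAction.isSolvable_of_le (Balance.centralizerPPrimeCore_le_centralizer 2 a))
    fun a ha _ b hb hb1 => ?_
  haveI := c.two.solvable_centralizer (Or.inl (c.order_two hb hb1))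
  exact Balance.centralizerPPrimeCore_inf_le (by rw [pow_two, c.sq ha]) (c.comm ha hb)
    Balance.centralizer_pCore_le_of_isSolvable

theorem th_le_W {a : G} (ha : a ∈ (c.E : Subgroup G)) (ha1 : a ≠ 1) : th a ≤ c.W :=
  le_iSup (fun a : {a : G // a ∈ (c.E : Subgroup G) ∧ a ≠ 1} => th (a : G)) ⟨a, ha, ha1⟩

theorem normalizer_le_W : Subgroup.normalizer ((c.E : Subgroup G) : Set G) ≤
    Subgroup.normalizer (c.W : Set G) := by
  intro n hn
  refine CfsgLib.CoprimeAction.mem_normalizer_of_conj_mem fun x hx => ?_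
  have h : c.W.map (MulAut.conj n).toMonoidHom ≤ c.W := by
    rw [W, Subgroup.map_iSup]
    exact iSup_le fun a => (th_conj n a).trans
      (c.th_le_W (CoprimeAction.conj_mem hn a.2.1) fun e => a.2.2 (conj_eq_one_iff.1 e))
  exact h ⟨x, hx, rfl⟩

theorem E_le_normalizer_W : (c.E : Subgroup G) ≤ Subgroup.normalizer (c.W : Set G) :=
  le_trans Subgroup.le_normalizer c.normalizer_le_W

theorem coprime_W : (Nat.card ↥(c.E : Subgroup G)).Coprime (Nat.card ↥c.W) := by
  haveI : Fact (Nat.Prime 2) := ⟨Nat.prime_two⟩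
  exact BGUniqueness.coprime_card_of_pGroup c.E.isPGroup' c.sft.1

theorem W_solvable : Group.IsSolvable ↥c.W :=
  Cfsg.Agent.S0205.result (Nat.odd_iff.2 (by have := c.sft.1; omega))

theorem th_pGroup {a : G} (ha : a ∈ (c.E : Subgroup G)) (ha1 : a ≠ 1) {x : G} (hx : x ∈ th a) (hx1 : x ≠ 1) :
    orderOf x = p := by
  have hodd : Odd (orderOf x) := by
    refine Odd.of_dvd_nat ?_ (Subgroup.orderOf_dvd_natCard _ hx)
    exact Nat.coprime_two_right.1 (Balance.coprime_card_centralizerPPrimeCore 2 a)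
  have hp := c.two.prime_of_odd hodd hx1
  rcases c.two.order_of_commute_involution hp (c.order_two ha ha1)
    (Subgroup.mem_centralizer_singleton_iff.1 (Balance.centralizerPPrimeCore_le_centralizer 2 a hx)) with e | e
  · rw [e] at hodd
    exact absurd hodd (by decide)
  · exact e

theorem W_pGroup : IsPGroup p ↥c.W := by
  classical
  haveI : Fact p.Prime := ⟨c.two.prime⟩
  refine IsPGroup.of_card (n := (Nat.card ↥c.W).primeFactorsList.length) ?_
  refine Nat.eq_prime_pow_of_unique_prime_dvd Nat.card_pos.ne' fun {q} hq hqd => ?_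
  by_contra hqp
  haveI : Fact q.Prime := ⟨hq⟩
  haveI := c.isMulCommutative
  obtain ⟨Q, hQ⟩ := CfsgLib.CoprimeAction.exists_invariant_sylow c.E_le_normalizer_W c.coprime_W
    (Or.inr c.W_solvable) q
  set Q' := (Q : Subgroup ↥c.W).map c.W.subtype
  have hQW : Q' ≤ c.W := Subgroup.map_subtype_le _
  have hbot : Q' ≤ ⊥ := by
    refine CfsgLib.CoprimeAction.le_of_centralizers c.not_cyclic hQ
      (c.coprime_W.coprime_dvd_right (Subgroup.card_dvd_of_le hQW)) fun a ha ha1 x hx => ?_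
    rw [Subgroup.mem_bot]
    by_contra hx1
    have hxt : x ∈ th a := by
      rw [← c.sft.2 a ha ha1]
      exact ⟨hQW hx.1, hx.2⟩
    obtain ⟨k, hk⟩ := IsPGroup.iff_orderOf.1 (Q.isPGroup'.map c.W.subtype) ⟨x, hx.1⟩
    rw [Subgroup.orderOf_mk, c.th_pGroup ha ha1 hxt hx1] at hk
    exact hqp ((Nat.prime_dvd_prime_iff_eq hq c.two.prime).1 (by
      rcases k with _ | k
      · exact absurd hk c.two.prime.one_lt.ne'
      · exact hk ▸ dvd_pow_self q k.succ_ne_zero))
  have h2 : (Q : Subgroup ↥c.W) = ⊥ := by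
    have := le_bot_iff.1 hbot
    rwa [Subgroup.map_eq_bot_iff_of_injective _ c.W.subtype_injective] at this
  exact Q.not_dvd_index (by rw [h2, Subgroup.index_bot]; exact hqd)

/-- A solvable subgroup containing `E` lies in every `M ≥ N(E)` containing its involution centralisers. -/
theorem solvable_le {X M : Subgroup G} (hX : Group.IsSolvable X) (hEX : (c.E : Subgroup G) ≤ X)
    (hN : X ⊓ Subgroup.normalizer ((c.E : Subgroup G) : Set G) ≤ M)
    (hC : ∀ a ∈ (c.E : Subgroup G), a ≠ 1 → (pPrimeCore 2 X).map X.subtype ⊓ Subgroup.centralizer ({a} : Set G) ≤ M) :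
    X ≤ M := by
  haveI : Fact (Nat.Prime 2) := ⟨Nat.prime_two⟩
  haveI := hX
  haveI := c.isMulCommutative
  set P : Sylow 2 X := c.E.subtype hEX
  have hnorm := core_sup_sylow_normal P (fun a ha b hb => Subtype.ext (c.comm ha hb))
  set O := (pPrimeCore 2 X).map X.subtype
  set N0 := pPrimeCore 2 X ⊔ (P : Subgroup X)
  have hmapP : (P : Subgroup X).map X.subtype = (c.E : Subgroup G) := Subgroup.map_subgroupOf_eq_of_le hEX
  have hN0 : N0.map X.subtype = O ⊔ (c.E : Subgroup G) := by rw [Subgroup.map_sup, hmapP]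
  have hXn : X ≤ Subgroup.normalizer ((O ⊔ (c.E : Subgroup G) : Subgroup G) : Set G) := by
    intro x hx
    refine CfsgLib.CoprimeAction.mem_normalizer_of_conj_mem fun y hy => ?_
    rw [← hN0] at hy ⊢
    obtain ⟨y, hy, rfl⟩ := hy
    exact ⟨⟨x, hx⟩ * y * ⟨x, hx⟩⁻¹, hnorm.conj_mem _ hy _, rfl⟩
  have hOX : O ≤ X := Subgroup.map_subtype_le _
  have hXO : X ≤ Subgroup.normalizer (O : Set G) := by
    intro x hx
    refine CfsgLib.CoprimeAction.mem_normalizer_of_conj_mem fun y hy => ?_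
    obtain ⟨y, hy, rfl⟩ := hy
    exact ⟨⟨x, hx⟩ * y * ⟨x, hx⟩⁻¹, (inferInstance : (pPrimeCore 2 X).Normal).conj_mem _ hy _, rfl⟩
  have hOcard : ¬ 2 ∣ Nat.card O := by
    rw [Subgroup.card_map_of_injective X.subtype_injective]
    exact CfsgLib.Cores.not_dvd_card_pPrimeCore
  have hOM : O ≤ M := CfsgLib.CoprimeAction.le_of_centralizers c.not_cyclic (hEX.trans hXO)
    (BGUniqueness.coprime_card_of_pGroup c.E.isPGroup' hOcard) hC
  have hEM : (c.E : Subgroup G) ≤ M := le_trans (le_inf hEX Subgroup.le_normalizer) hN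
  refine le_trans (BGUniqueness.frattini_arg (p := 2) (sup_le hOX hEX) hXn le_sup_right c.E.isPGroup' ?_) ?_
  · intro h
    exact c.sylow_index (h.trans ((Subgroup.relIndex_dvd_index_of_le le_sup_right)))
  · exact sup_le (sup_le hOM hEM) hN

/-- The candidate strongly embedded subgroup. -/
def M0 : Subgroup G := c.W ⊔ Subgroup.normalizer ((c.E : Subgroup G) : Set G)

theorem centralizer_le_M0 {a : G} (ha : a ∈ (c.E : Subgroup G)) (ha1 : a ≠ 1) :
    Subgroup.centralizer ({a} : Set G) ≤ c.M0 := by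
  refine c.solvable_le (c.two.solvable_centralizer (Or.inl (c.order_two ha ha1)))
    (fun e he => Subgroup.mem_centralizer_singleton_iff.2 (c.comm he ha))
    (inf_le_right.trans le_sup_right) fun b hb hb1 => ?_
  exact le_trans inf_le_left (le_trans (c.th_le_W ha ha1) le_sup_left)

theorem mem_M0 {g : G} (hg : g ∈ c.M0) :
    ∃ w ∈ c.W, ∃ n ∈ Subgroup.normalizer ((c.E : Subgroup G) : Set G), w * n = g := by
  have h : g ∈ ((c.W : Subgroup G) : Set G) * (Subgroup.normalizer ((c.E : Subgroup G) : Set G) : Set G) := by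
    rw [← Subgroup.coe_mul_of_right_le_normalizer_left c.W _ c.normalizer_le_W]
    exact hg
  obtain ⟨w, hw, n, hn, h⟩ := h
  exact ⟨w, hw, n, hn, h⟩

theorem W_inf_E {x : G} (hW : x ∈ c.W) (hE : x ∈ (c.E : Subgroup G)) : x = 1 :=
  Subgroup.mem_bot.1 (Subgroup.inf_eq_bot_of_coprime c.coprime_W.symm ▸ ⟨hW, hE⟩)

/-- Conjugation by `w n` between elements of `E` is conjugation by `n`. -/
theorem conj_E {w n s t : G} (hw : w ∈ c.W) (hn : n ∈ Subgroup.normalizer ((c.E : Subgroup G) : Set G))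
    (hs : s ∈ (c.E : Subgroup G)) (ht : t ∈ (c.E : Subgroup G)) (h : w * n * s * (w * n)⁻¹ = t) :
    n * s * n⁻¹ = t := by
  have he : n * s * n⁻¹ ∈ (c.E : Subgroup G) := CoprimeAction.conj_mem hn hs
  set e := n * s * n⁻¹
  have h1 : w * e * w⁻¹ = t := by rw [← h]; simp only [e]; group
  have h2 : e⁻¹ * w * e ∈ c.W := by
    have := CoprimeAction.conj_mem (c.E_le_normalizer_W (inv_mem he)) hw
    simpa using this
  have h3 : e⁻¹ * t ∈ c.W := by
    rw [← h1, show e⁻¹ * (w * e * w⁻¹) = e⁻¹ * w * e * w⁻¹ by group]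
    exact mul_mem h2 (inv_mem hw)
  exact inv_mul_eq_one.1 (c.W_inf_E h3 (mul_mem (inv_mem he) ht))

theorem exists_conj_E {i : G} (hi : i ∈ c.M0) (ho : orderOf i = 2) :
    ∃ g ∈ c.M0, g * i * g⁻¹ ∈ (c.E : Subgroup G) := by
  haveI : Fact (Nat.Prime 2) := ⟨Nat.prime_two⟩
  have hEM : (c.E : Subgroup G) ≤ c.M0 := le_trans Subgroup.le_normalizer le_sup_right
  have hp : IsPGroup 2 (Subgroup.zpowers (⟨i, hi⟩ : c.M0)) := IsPGroup.of_card (n := 1)
    (by rw [Nat.card_zpowers, ← Subgroup.orderOf_coe, pow_one]; exact ho)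
  obtain ⟨Q, hQ⟩ := hp.exists_le_sylow
  obtain ⟨g, hg⟩ := MulAction.exists_smul_eq c.M0 Q (c.E.subtype hEM)
  refine ⟨g, g.2, ?_⟩
  have hmem : g * (⟨i, hi⟩ : c.M0) * g⁻¹ ∈ ((g • Q : Sylow 2 c.M0) : Subgroup c.M0) := by
    rw [Sylow.coe_subgroup_smul, Subgroup.mem_pointwise_smul_iff_inv_smul_mem]
    have : (MulAut.conj g)⁻¹ • (g * (⟨i, hi⟩ : c.M0) * g⁻¹) = ⟨i, hi⟩ := by
      simp [MulAut.smul_def, mul_assoc]
    rw [this]
    exact hQ (Subgroup.mem_zpowers _)
  rw [hg] at hmem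
  exact hmem

variable [IsSimpleGroup G]

theorem M0_ne_top : c.M0 ≠ ⊤ := by
  intro htop
  obtain ⟨a, b, hab⟩ := c.nonab
  have hWn : c.W.Normal := by
    refine Subgroup.normalizer_eq_top_iff.1 (top_le_iff.1 (htop ▸ ?_))
    exact sup_le Subgroup.le_normalizer c.normalizer_le_W
  rcases hWn.eq_bot_or_eq_top with hb | ht
  · have hEn : (c.E : Subgroup G).Normal := Subgroup.normalizer_eq_top_iff.1 (by
      rwa [M0, hb, bot_sup_eq] at htop)
    rcases hEn.eq_bot_or_eq_top with h | h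
    · obtain ⟨e, he, he1⟩ := c.exists_ne_one
      rw [h, Subgroup.mem_bot] at he
      exact he1 he
    · exact hab (c.comm (h ▸ Subgroup.mem_top a) (h ▸ Subgroup.mem_top b))
  · haveI := c.W_solvable
    haveI : Group.IsSolvable G := Group.isSolvable_of_surjective
      (f := c.W.subtype) fun g => ⟨⟨g, ht ▸ Subgroup.mem_top g⟩, rfl⟩
    exact hab (IsSimpleGroup.comm_iff_isSolvable.2 inferInstance a b)

theorem M0_stronglyEmbedded : IsStronglyEmbedded c.M0 := by
  haveI : Fact (Nat.Prime 2) := ⟨Nat.prime_two⟩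
  have hEM : (c.E : Subgroup G) ≤ c.M0 := le_trans Subgroup.le_normalizer le_sup_right
  obtain ⟨e, he, he1⟩ := c.exists_ne_one
  refine ⟨c.M0_ne_top, even_iff_two_dvd.2 ((c.order_two he he1) ▸ Subgroup.orderOf_dvd_natCard _ (hEM he)),
    fun g hg => ?_⟩
  rw [← Nat.not_even_iff_odd, even_iff_two_dvd]
  intro h2
  obtain ⟨i, hi⟩ := exists_prime_orderOf_dvd_card' 2 h2
  rw [← Subgroup.orderOf_coe] at hi
  obtain ⟨hiM, j, hj, hji⟩ := i.2
  have hji' : g * j * g⁻¹ = (i : G) := hji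
  have hjo : orderOf j = 2 := by
    rw [← hi, ← hji']
    exact (orderOf_injective (MulAut.conj g).toMonoidHom (MulAut.conj g).injective j).symm
  obtain ⟨m, hm, hmi⟩ := c.exists_conj_E hiM hi
  obtain ⟨m', hm', hmj⟩ := c.exists_conj_E hj hjo
  -- two Sylow subgroups of the centraliser of `i`
  set C := Subgroup.centralizer ({(i : G)} : Set G)
  have hCM : C ≤ c.M0 := by
    intro x hx
    rw [Subgroup.mem_centralizer_singleton_iff] at hx
    have hx1 : (m * (i : G) * m⁻¹) ≠ 1 := fun e => by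
      rw [conj_eq_one_iff.1 e, orderOf_one] at hi
      omega
    have : m * x * m⁻¹ ∈ c.M0 := c.centralizer_le_M0 hmi hx1 (by
      rw [Subgroup.mem_centralizer_singleton_iff]
      calc m * x * m⁻¹ * (m * (i : G) * m⁻¹) = m * (x * i) * m⁻¹ := by group
        _ = m * (i * x) * m⁻¹ := by rw [hx]
        _ = _ := by group)
    have := mul_mem (mul_mem (inv_mem hm) this) hm
    simpa [mul_assoc] using this
  have hE1 : ((MulAut.conj m⁻¹ • c.E : Sylow 2 G) : Subgroup G) ≤ C := by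
    intro x hx
    rw [Sylow.pointwise_smul_def, Subgroup.mem_pointwise_smul_iff_inv_smul_mem] at hx
    have hx' : m * x * m⁻¹ ∈ (c.E : Subgroup G) := by simpa [MulAut.smul_def] using hx
    rw [Subgroup.mem_centralizer_singleton_iff]
    calc x * i = m⁻¹ * ((m * x * m⁻¹) * (m * i * m⁻¹)) * m := by group
      _ = m⁻¹ * ((m * i * m⁻¹) * (m * x * m⁻¹)) * m := by rw [c.comm hx' hmi]
      _ = _ := by group
  have hE2 : ((MulAut.conj (g * m'⁻¹) • c.E : Sylow 2 G) : Subgroup G) ≤ C := by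
    intro x hx
    rw [Sylow.pointwise_smul_def, Subgroup.mem_pointwise_smul_iff_inv_smul_mem] at hx
    have hx' : m' * g⁻¹ * x * (g * m'⁻¹) ∈ (c.E : Subgroup G) := by
      simpa [MulAut.smul_def, mul_assoc] using hx
    rw [Subgroup.mem_centralizer_singleton_iff, ← hji']
    calc x * (g * j * g⁻¹) = g * m'⁻¹ * ((m' * g⁻¹ * x * (g * m'⁻¹)) * (m' * j * m'⁻¹)) * (m' * g⁻¹) := by group
      _ = g * m'⁻¹ * ((m' * j * m'⁻¹) * (m' * g⁻¹ * x * (g * m'⁻¹))) * (m' * g⁻¹) := by rw [c.comm hx' hmj]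
      _ = _ := by group
  obtain ⟨x, hx⟩ := MulAction.exists_smul_eq C ((MulAut.conj m⁻¹ • c.E : Sylow 2 G).subtype hE1)
    ((MulAut.conj (g * m'⁻¹) • c.E : Sylow 2 G).subtype hE2)
  have hfix : MulAut.conj ((x : G) * m⁻¹) • c.E = MulAut.conj (g * m'⁻¹) • c.E := by
    rw [map_mul, mul_smul]
    rw [Sylow.smul_subtype] at hx
    exact Sylow.subtype_injective hx
  have hn : (g * m'⁻¹)⁻¹ * ((x : G) * m⁻¹) ∈ Subgroup.normalizer ((c.E : Subgroup G) : Set G) := by
    refine Sylow.smul_eq_iff_mem_normalizer.1 ?_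
    show MulAut.conj ((g * m'⁻¹)⁻¹ * ((x : G) * m⁻¹)) • c.E = c.E
    rw [map_mul, mul_smul, hfix, map_inv, inv_smul_smul]
  refine hg ?_
  have h1 : ((x : G) * m⁻¹) * ((g * m'⁻¹)⁻¹ * ((x : G) * m⁻¹))⁻¹ * m' ∈ c.M0 :=
    mul_mem (mul_mem (mul_mem (hCM x.2) (inv_mem hm)) (inv_mem ((le_sup_right : _ ≤ c.M0) hn))) hm'
  rwa [show ((x : G) * m⁻¹) * ((g * m'⁻¹)⁻¹ * ((x : G) * m⁻¹))⁻¹ * m' = g by group] at h1

theorem N_transitive {s t : G} (hs : s ∈ (c.E : Subgroup G)) (hs1 : s ≠ 1) (ht : t ∈ (c.E : Subgroup G))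
    (ht1 : t ≠ 1) : ∃ n ∈ Subgroup.normalizer ((c.E : Subgroup G) : Set G), n * s * n⁻¹ = t := by
  have hSE := c.M0_stronglyEmbedded
  have hEM : (c.E : Subgroup G) ≤ c.M0 := le_trans Subgroup.le_normalizer le_sup_right
  obtain ⟨g, hg⟩ : ∃ g : G, g ∉ c.M0 := by
    by_contra h
    push Not at h
    exact c.M0_ne_top ((Subgroup.eq_top_iff' _).2 h)
  set x : G ⧸ c.M0 := QuotientGroup.mk 1
  have hfix : ∀ a ∈ (c.E : Subgroup G), a • x = x := fun a ha => by
    rw [TwoFusion.smul_mk_eq_iff]; simpa using hEM ha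
  set u := g * s * g⁻¹
  have hu : orderOf u = 2 := (orderOf_injective (MulAut.conj g).toMonoidHom (MulAut.conj g).injective s).trans (c.order_two hs hs1)
  have hux : u • x ≠ x := by
    intro e
    refine hg ?_
    have h2 : u • (QuotientGroup.mk g : G ⧸ c.M0) = QuotientGroup.mk g := by
      rw [TwoFusion.smul_mk_eq_iff]
      simpa [u, mul_assoc] using hEM hs
    have h3 := TwoFusion.fix_unique hSE hu e h2
    rw [QuotientGroup.eq] at h3
    simpa using h3
  obtain ⟨d, hdx, -, hd⟩ := TwoFusion.exists_conj_in_two_point_stabilizer hSE hu hux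
    (s := s) (t := t) ⟨c.order_two hs hs1, hfix s hs⟩ ⟨c.order_two ht ht1, hfix t ht⟩
  rw [TwoFusion.smul_mk_eq_iff] at hdx
  obtain ⟨w, hw, n, hn, rfl⟩ := c.mem_M0 (show d ∈ c.M0 by simpa using hdx)
  exact ⟨n, hn, c.conj_E hw hn hs ht hd⟩

/-- An element of prime order of `N(E)` without fixed points on `E`. -/
theorem exists_fpf : ∃ y ∈ Subgroup.normalizer ((c.E : Subgroup G) : Set G), ∃ s : ℕ, s.Prime ∧ s ≠ 2 ∧
    orderOf y = s ∧ ∀ e ∈ (c.E : Subgroup G), e * y = y * e → e = 1 := by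
  classical
  haveI : Fact (Nat.Prime 2) := ⟨Nat.prime_two⟩
  set N := Subgroup.normalizer ((c.E : Subgroup G) : Set G) with hN
  let α := {a : G // a ∈ (c.E : Subgroup G) ∧ a ≠ 1}
  letI : MulAction N α :=
    { smul := fun n a => ⟨(n : G) * a * (n : G)⁻¹, CoprimeAction.conj_mem n.2 a.2.1,
        fun e => a.2.2 (conj_eq_one_iff.1 e)⟩
      one_smul := fun a => Subtype.ext (show (1 : G) * a * (1 : G)⁻¹ = a by simp)
      mul_smul := fun m n a => Subtype.ext (show ((m : G) * n) * a * ((m : G) * n)⁻¹ = (m : G) * ((n : G) * a * (n : G)⁻¹) * (m : G)⁻¹ by group) }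
  haveI : MulAction.IsPretransitive N α := ⟨fun a b => by
    obtain ⟨n, hn, h⟩ := c.N_transitive a.2.1 a.2.2 b.2.1 b.2.2
    exact ⟨⟨n, hn⟩, Subtype.ext h⟩⟩
  obtain ⟨e₀, he₀, he₀1⟩ := c.exists_ne_one
  let a₀ : α := ⟨e₀, he₀, he₀1⟩
  have hcardα : Nat.card α + 1 = Nat.card ↥(c.E : Subgroup G) := by
    haveI := Fintype.ofFinite G
    have h1 : Nat.card α = (((c.E : Subgroup G) : Set G) \ {1}).ncard := by
      rw [← Nat.card_coe_set_eq]
      exact Nat.card_congr (Equiv.subtypeEquivRight fun x => Iff.rfl)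
    rw [h1, Set.ncard_sdiff_singleton_of_mem (show (1 : G) ∈ ((c.E : Subgroup G) : Set G) from one_mem (c.E : Subgroup G))]
    rw [show Nat.card ↥(c.E : Subgroup G) = ((c.E : Subgroup G) : Set G).ncard from Nat.card_coe_set_eq _]
    have := Set.ncard_pos (s := ((c.E : Subgroup G) : Set G)) (Set.toFinite _) |>.2 ⟨1, one_mem (c.E : Subgroup G)⟩
    omega
  have hdvd : Nat.card α ∣ Nat.card N := by
    rw [← MulAction.index_stabilizer_of_transitive N a₀]
    exact Subgroup.index_dvd_card _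
  obtain ⟨r, hr⟩ := IsPGroup.iff_card.1 c.E.isPGroup'
  have h8 := c.rank
  rw [hr] at h8 hcardα
  have hr3 : 3 ≤ r := by
    by_contra h
    have : 2 ^ r ≤ 2 ^ 2 := Nat.pow_le_pow_right (by norm_num) (by omega)
    omega
  have hfix_iff : ∀ (y : N) (e : G) (he : e ∈ (c.E : Subgroup G)) (he1 : e ≠ 1),
      e * (y : G) = y * e ↔ y • (⟨e, he, he1⟩ : α) = ⟨e, he, he1⟩ := by
    intro y e he he1
    rw [Subtype.ext_iff]
    show e * (y : G) = y * e ↔ (y : G) * e * (y : G)⁻¹ = e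
    exact ⟨fun h => by rw [← h]; group, fun h => by nth_rw 1 [← h]; group⟩
  by_cases hall : ∀ s, s.Prime → s ∣ Nat.card α → s = p
  · -- the number of points is the prime `p`
    haveI : Fact p.Prime := ⟨c.two.prime⟩
    have hpw := Nat.eq_prime_pow_of_unique_prime_dvd (n := Nat.card α) (p := p) (by omega) (fun {d} hd hdd => hall d hd hdd)
    set k := (Nat.card α).primeFactorsList.length
    have hk0 : 0 < k := by
      rcases Nat.eq_zero_or_pos k with h | h
      · rw [h, pow_zero] at hpw; omega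
      · exact h
    have hk1 : k = 1 := CfsgLib.Spectrum.eq_one_of_pow_add_one_eq_two_pow c.two.prime.two_le hk0 (hpw ▸ hcardα)
    rw [hk1, pow_one] at hpw
    set φ := MulAction.toPermHom N α
    have hpd : p ∣ Nat.card φ.range := by
      haveI : MulAction.IsPretransitive φ.range α := ⟨fun a b => by
        obtain ⟨n, h⟩ := MulAction.exists_smul_eq N a b
        exact ⟨⟨φ n, n, rfl⟩, h⟩⟩
      rw [← hpw, ← MulAction.index_stabilizer_of_transitive φ.range a₀]
      exact Subgroup.index_dvd_card _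
    obtain ⟨⟨σ, n, rfl⟩, hσ⟩ := exists_prime_orderOf_dvd_card' p hpd
    rw [← Subgroup.orderOf_coe] at hσ
    have hpo : p ∣ orderOf n := hσ ▸ orderOf_map_dvd φ n
    obtain ⟨y, hyo, hy1⟩ : ∃ y : N, orderOf y = p ∧ φ y ≠ 1 := by
      rcases c.two.2.2 (n : G) with h | h | h <;> rw [Subgroup.orderOf_coe] at h
      · rw [h] at hpo
        exact absurd (Nat.dvd_one.1 hpo) c.two.prime.one_lt.ne'
      · exact ⟨n, ((Nat.prime_dvd_prime_iff_eq c.two.prime h).1 hpo).symm,
          fun e => c.two.prime.one_lt.ne' (by rw [← hσ]; exact orderOf_eq_one_iff.2 e)⟩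
      · refine ⟨n ^ 2, ?_, fun e => ?_⟩
        · rw [orderOf_pow_of_dvd (by norm_num) (h ▸ dvd_mul_right 2 p), h]
          omega
        · rw [map_pow] at e
          have h2 := orderOf_dvd_of_pow_eq_one e
          rw [hσ] at h2
          exact c.two.ne_two ((Nat.prime_dvd_prime_iff_eq c.two.prime Nat.prime_two).1 h2)
    refine ⟨y, y.2, p, c.two.prime, c.two.ne_two, (Subgroup.orderOf_coe y).trans hyo, fun e he hc => ?_⟩
    by_contra he1
    refine no_fix_of_card_prime c.two.prime ?_ hpw hy1 (⟨e, he, he1⟩ : α) ((hfix_iff y e he he1).1 hc)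
    rw [← map_pow, ← hyo, pow_orderOf_eq_one, map_one]
  · push Not at hall
    obtain ⟨s, hs, hsd, hsp⟩ := hall
    haveI : Fact s.Prime := ⟨hs⟩
    have hs2 : s ≠ 2 := by
      rintro rfl
      have h2 : 2 ∣ 2 ^ r := dvd_pow_self 2 (by omega)
      omega
    obtain ⟨y, hy⟩ := exists_prime_orderOf_dvd_card' s (hsd.trans hdvd)
    rw [← Subgroup.orderOf_coe] at hy
    refine ⟨y, y.2, s, hs, hs2, hy, fun e he hc => ?_⟩
    by_contra he1
    rcases c.two.commute_orders (a := e) (b := (y : G)) (c.order_two he he1 ▸ Nat.prime_two) (hy ▸ hs)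
      (by rw [c.order_two he he1, hy]; exact hs2.symm) hc with h | h
    · exact hsp (hy.symm.trans h.2)
    · exact hs2 (hy.symm.trans h.2)

/-- `E` centralises `W`. -/
theorem W_comm_E {e w : G} (he : e ∈ (c.E : Subgroup G)) (hw : w ∈ c.W) : e * w = w * e := by
  classical
  haveI : Fact (Nat.Prime 2) := ⟨Nat.prime_two⟩
  haveI : Fact p.Prime := ⟨c.two.prime⟩
  obtain ⟨y, hy, s, hs, hs2, hyo, hfix⟩ := c.exists_fpf
  have hnW := c.normalizer_le_W
  refine comm_of_norm_pGroup c.W_pGroup hs (hyo ▸ pow_orderOf_eq_one y)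
    (fun k hk w hw => CoprimeAction.conj_mem (c.E_le_normalizer_W hk) hw)
    (fun w hw => CoprimeAction.conj_mem (hnW hy) hw)
    (fun k hk => CoprimeAction.conj_mem hy hk) hfix c.coprime_W ?_ e he w hw
  intro k hk v hv
  set x := v * (k * y) with hx
  -- `x` has the order of `y`
  have hnv : ∀ i : ℕ, ∃ m, m ∈ c.W ⊔ (c.E : Subgroup G) ∧ x ^ i = m * y ^ i := by
    have hnorm : y ∈ Subgroup.normalizer ((c.W ⊔ (c.E : Subgroup G) : Subgroup G) : Set G) := by
      refine CfsgLib.CoprimeAction.mem_normalizer_of_conj_mem fun z hz => ?_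
      have hle : (c.W ⊔ (c.E : Subgroup G)).map (MulAut.conj y).toMonoidHom ≤ c.W ⊔ (c.E : Subgroup G) := by
        rw [Subgroup.map_sup]
        refine sup_le_sup ?_ ?_ <;> rintro _ ⟨a, ha, rfl⟩
        · exact CoprimeAction.conj_mem (hnW hy) ha
        · exact CoprimeAction.conj_mem hy ha
      exact hle ⟨z, hz, rfl⟩
    intro i
    induction i with
    | zero => exact ⟨1, one_mem _, by simp⟩
    | succ i ih =>
      obtain ⟨m, hm, he⟩ := ih
      refine ⟨m * (y ^ i * (v * k) * (y ^ i)⁻¹), mul_mem hm (CoprimeAction.conj_mem (pow_mem hnorm i)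
        (mul_mem ((le_sup_left : c.W ≤ _) hv) ((le_sup_right : (c.E : Subgroup G) ≤ _) hk))), ?_⟩
      rw [pow_succ, he, hx, pow_succ]
      group
  have hWE : ∀ z ∈ c.W ⊔ (c.E : Subgroup G), ∃ a ∈ c.W, ∃ b ∈ (c.E : Subgroup G), a * b = z := by
    intro z hz
    have h : z ∈ ((c.W : Subgroup G) : Set G) * ((c.E : Subgroup G) : Set G) := by
      rw [← Subgroup.coe_mul_of_right_le_normalizer_left c.W _ c.E_le_normalizer_W]
      exact hz
    obtain ⟨a, ha, b, hb, h⟩ := h
    exact ⟨a, ha, b, hb, h⟩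
  -- `y` is not in `W E`
  have hyWE : y ∉ c.W ⊔ (c.E : Subgroup G) := by
    intro h
    obtain ⟨a, ha, b, hb, hab⟩ := hWE y h
    obtain ⟨e₁, he₁, he₁1⟩ := c.exists_ne_one
    refine he₁1 (hfix e₁ he₁ ?_)
    have h1 : a * b * e₁ * (a * b)⁻¹ = y * e₁ * y⁻¹ := by rw [hab]
    have h2 := c.conj_E ha (Subgroup.le_normalizer hb) he₁ (CoprimeAction.conj_mem hy he₁) h1
    rw [c.comm hb he₁, mul_inv_cancel_right] at h2
    nth_rw 1 [h2]
    group
  have hsx : s ∣ orderOf x := by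
    by_contra hns
    obtain ⟨m, hm, he⟩ := hnv (orderOf x)
    rw [pow_orderOf_eq_one] at he
    have hyx : y ^ orderOf x ∈ c.W ⊔ (c.E : Subgroup G) := by
      rw [eq_inv_of_mul_eq_one_right he.symm]
      exact inv_mem hm
    have hco : (orderOf x).Coprime (orderOf y) := hyo.symm ▸ ((hs.coprime_iff_not_dvd).2 hns).symm
    obtain ⟨j, hj⟩ := exists_pow_eq_self_of_coprime hco
    exact hyWE (hj ▸ pow_mem hyx j)
  rcases c.two.2.2 x with h | h | h
  · rw [h, Nat.dvd_one] at hsx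
    exact absurd hsx hs.one_lt.ne'
  · rw [(Nat.prime_dvd_prime_iff_eq hs h).1 hsx, pow_orderOf_eq_one]
  · exfalso
    have hsp : s = p := by
      rw [h] at hsx
      rcases hs.dvd_mul.1 hsx with e | e
      · exact absurd ((Nat.prime_dvd_prime_iff_eq hs Nat.prime_two).1 e) hs2
      · exact (Nat.prime_dvd_prime_iff_eq hs c.two.prime).1 e
    -- `x ^ p` is an involution in `W E`
    obtain ⟨m, hm, he⟩ := hnv p
    rw [show y ^ p = 1 by rw [← hsp, ← hyo, pow_orderOf_eq_one], mul_one] at he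
    have hxp : orderOf (x ^ p) = 2 := by
      rw [orderOf_pow_of_dvd c.two.prime.ne_zero (h ▸ dvd_mul_left p 2), h, Nat.mul_div_cancel _ c.two.prime.pos]
    obtain ⟨a, ha, b, hb, hab⟩ := hWE m hm
    have hEWE : (c.E : Subgroup G) ≤ c.W ⊔ (c.E : Subgroup G) := le_sup_right
    have hp2 : IsPGroup 2 (Subgroup.zpowers (⟨x ^ p, he ▸ hm⟩ : ↥(c.W ⊔ (c.E : Subgroup G)))) :=
      IsPGroup.of_card (n := 1) (by rw [Nat.card_zpowers, ← Subgroup.orderOf_coe, pow_one]; exact hxp)
    obtain ⟨Q, hQ⟩ := hp2.exists_le_sylow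
    obtain ⟨g, hg⟩ := MulAction.exists_smul_eq ↥(c.W ⊔ (c.E : Subgroup G)) Q (c.E.subtype hEWE)
    have hmem : g * (⟨x ^ p, he ▸ hm⟩ : ↥(c.W ⊔ (c.E : Subgroup G))) * g⁻¹ ∈
        ((g • Q : Sylow 2 _) : Subgroup _) := by
      rw [Sylow.coe_subgroup_smul, Subgroup.mem_pointwise_smul_iff_inv_smul_mem]
      have : (MulAut.conj g)⁻¹ • (g * (⟨x ^ p, he ▸ hm⟩ : ↥(c.W ⊔ (c.E : Subgroup G))) * g⁻¹) =
          (⟨x ^ p, he ▸ hm⟩ : ↥(c.W ⊔ (c.E : Subgroup G))) := by simp [MulAut.smul_def, mul_assoc]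
      rw [this]
      exact hQ (Subgroup.mem_zpowers _)
    rw [hg] at hmem
    have hiE : (g : G) * x ^ p * (g : G)⁻¹ ∈ (c.E : Subgroup G) := hmem
    set i := (g : G) * x ^ p * (g : G)⁻¹ with hi
    have hi1 : i ≠ 1 := fun e => by
      rw [hi, conj_eq_one_iff] at e
      rw [e, orderOf_one] at hxp
      omega
    obtain ⟨a', ha', b', hb', hab'⟩ := hWE _ g.2
    -- move the conjugated element into `W (E y)`
    set x' := (g : G) * x * (g : G)⁻¹ with hx'
    have hcx : x' * i = i * x' := by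
      rw [hi, hx', ← conj_pow, ← pow_succ', ← pow_succ]
    obtain ⟨z, hz, hzeq⟩ : ∃ z ∈ c.W ⊔ (c.E : Subgroup G), x' = z * y := by
      refine ⟨(g : G) * (v * k) * (y * (g : G)⁻¹ * y⁻¹), mul_mem (mul_mem g.2
        (mul_mem ((le_sup_left : c.W ≤ _) hv) (hEWE hk))) ?_, by rw [hx', hx]; group⟩
      have hle : ∀ q ∈ c.W ⊔ (c.E : Subgroup G), y * q * y⁻¹ ∈ c.W ⊔ (c.E : Subgroup G) := by
        intro q hq
        obtain ⟨a, ha, b, hb, rfl⟩ := hWE q hq
        rw [show y * (a * b) * y⁻¹ = (y * a * y⁻¹) * (y * b * y⁻¹) by group]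
        exact mul_mem ((le_sup_left : c.W ≤ _) (CoprimeAction.conj_mem (hnW hy) ha))
          (hEWE (CoprimeAction.conj_mem hy hb))
      exact hle _ (inv_mem g.2)
    obtain ⟨a1, ha1, b1, hb1, hz1⟩ := hWE z hz
    have hfixi : a1 * (b1 * y) * i * (a1 * (b1 * y))⁻¹ = i := by
      rw [← mul_assoc a1, hz1, ← hzeq, hcx]; group
    have h3 := c.conj_E ha1 (mul_mem (Subgroup.le_normalizer hb1) hy) hiE hiE hfixi
    have h4 : y * i * y⁻¹ = i := by
      have hb' := CoprimeAction.conj_mem hy hiE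
      rw [show b1 * y * i * (b1 * y)⁻¹ = b1 * (y * i * y⁻¹) * b1⁻¹ by group, c.comm hb1 hb',
        mul_inv_cancel_right] at h3
      exact h3
    exact hi1 (hfix i hiE (by nth_rw 1 [← h4]; group))

end Ctx

end CfsgLib.OneComposite
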