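import Cfsg.Agent.Lib.OneComposite.Basic
import Cfsg.Agent.Lib.SL2.Torus
import Cfsg.Agent.S0252
import Cfsg.Agent.S0253

/-!
`PSL₂` with at most one composite element order.
-/

set_option autoImplicit false

open Cfsg Matrix
open scoped MatrixGroups

namespace CfsgLib.OneComposite

/-- The composite divisors of `A` and `B` are all equal. -/
def CompEq (A B : ℕ) : Prop :=
  ∀ a b : ℕ, (a ∣ A ∨ a ∣ B) → (b ∣ A ∨ b ∣ B) → 1 < a → ¬ a.Prime → 1 < b → ¬ b.Prime → a = b

theorem CompEq.symm {A B : ℕ} (h : CompEq A B) : CompEq B A :=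
  fun a b ha hb => h a b ha.symm hb.symm

/-- A proper divisor of a composite number in such a pair is prime. -/
theorem CompEq.prime_of_dvd {A B d : ℕ} (h : CompEq A B) (hd : d ∣ A) (h1 : 1 < d) (hlt : d < A) :
    d.Prime := by
  by_contra hdp
  have hA : ¬ A.Prime := fun hp => by
    rcases (Nat.dvd_prime hp).1 hd with e | e <;> omega
  exact hlt.ne (h d A (Or.inl hd) (Or.inl dvd_rfl) h1 hdp (by omega) hA)

/-- The partner of a composite number is prime. -/
theorem CompEq.prime_other {A B : ℕ} (h : CompEq A B) (hA : 1 < A) (hAp : ¬ A.Prime) (hne : A ≠ B)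
    (hB : 1 < B) : B.Prime :=
  by_contra fun hBp => hne (h A B (Or.inl dvd_rfl) (Or.inr dvd_rfl) hA hAp hB hBp)

theorem mod_three_of_two_pow (n : ℕ) : 2 ^ (2 * n) % 3 = 1 := by
  rw [pow_mul, Nat.pow_mod]
  norm_num

/-- The even case. -/
theorem compEq_even {f : ℕ} (hf : 2 ≤ f) (h : CompEq (2 ^ f - 1) (2 ^ f + 1)) :
    f = 2 ∨ f = 3 ∨ f = 4 ∨ ((2 ^ f - 1).Prime ∧ ∃ r, r.Prime ∧ 2 ^ f + 1 = 3 * r) := by
  by_cases h4 : f ≤ 4
  · omega
  rcases Nat.even_or_odd' f with ⟨k, rfl | rfl⟩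
  · exfalso
    have hk : 8 ≤ 2 ^ k := le_trans (by norm_num) (Nat.pow_le_pow_right (by norm_num) (show 3 ≤ k by omega))
    have hsq : 2 ^ (2 * k) - 1 = (2 ^ k + 1) * (2 ^ k - 1) := by
      rw [← Nat.sq_sub_sq, ← pow_mul, mul_comm k 2, one_pow]
    have hlt1 : 2 ^ k + 1 < (2 ^ k + 1) * (2 ^ k - 1) :=
      lt_mul_of_one_lt_right (by omega) (by omega)
    have hlt2 : 2 ^ k - 1 < (2 ^ k + 1) * (2 ^ k - 1) :=
      lt_mul_of_one_lt_left (by omega) (by omega)
    rw [hsq] at h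
    have p1 := h.prime_of_dvd (dvd_mul_right _ _) (by omega) hlt1
    have p2 := h.prime_of_dvd (dvd_mul_left _ _) (by omega) hlt2
    have h3 : 3 ∣ 2 ^ k + 1 ∨ 3 ∣ 2 ^ k - 1 := by
      refine (Nat.prime_three.dvd_mul).1 ?_
      rw [← hsq]
      have := mod_three_of_two_pow k
      omega
    rcases h3 with e | e
    · have := (Nat.prime_dvd_prime_iff_eq Nat.prime_three p1).1 e; omega
    · have := (Nat.prime_dvd_prime_iff_eq Nat.prime_three p2).1 e; omega
  · have hk : 32 ≤ 2 ^ (2 * k + 1) :=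
      le_trans (by norm_num) (Nat.pow_le_pow_right (by norm_num) (show 5 ≤ 2 * k + 1 by omega))
    have h3 : 3 ∣ 2 ^ (2 * k + 1) + 1 := by
      have := mod_three_of_two_pow k
      rw [pow_succ]; omega
    obtain ⟨r, hr⟩ := h3
    have hB : ¬ (2 ^ (2 * k + 1) + 1).Prime := fun hp => by
      have := (Nat.prime_dvd_prime_iff_eq Nat.prime_three hp).1 ⟨r, hr⟩; omega
    exact Or.inr (Or.inr (Or.inr ⟨h.symm.prime_other (by omega) hB (by omega) (by omega), r,
      h.symm.prime_of_dvd ⟨3, by omega⟩ (by omega) (by omega), hr⟩))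

/-- The odd case in characteristic other than three. -/
theorem compEq_odd {q a : ℕ} (hq : q = 2 * a + 1) (ha : 2 ≤ a) (h3 : ¬ 3 ∣ q) (h : CompEq a (a + 1)) :
    q = 5 ∨ q = 7 ∨ q = 11 ∨ q = 13 := by
  have key : ∀ X Y : ℕ, CompEq X Y → 3 ∣ X → 3 < X → X ≠ Y → 1 < Y → 3 ≤ Y ∨ X ≤ 3 →
      (X + 1 = Y ∨ Y + 1 = X) → X = 6 := by
    intro X Y hXY hd hX hne hY hY3 hadj
    have hXp : ¬ X.Prime := fun hp => by
      have := (Nat.prime_dvd_prime_iff_eq Nat.prime_three hp).1 hd; omega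
    have hYp := hXY.prime_other (by omega) hXp hne hY
    have hYodd := hYp.eq_two_or_odd
    have h2 : 2 ∣ X := by omega
    by_contra h6
    have := hXY.prime_of_dvd (d := 6) (by omega) (by norm_num) (by omega)
    norm_num at this
  have h30 : 3 ∣ a ∨ 3 ∣ a + 1 := by
    rcases (by omega : a % 3 = 0 ∨ a % 3 = 1 ∨ a % 3 = 2) with e | e | e <;> omega
  rcases h30 with hd | hd
  · by_cases ha3 : a = 3
    · omega
    · have := key a (a + 1) h hd (by omega) (by omega) (by omega) (by omega) (Or.inl rfl); omega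
  · by_cases ha3 : a = 2
    · omega
    · have := key (a + 1) a h.symm hd (by omega) (by omega) (by omega) (by omega) (Or.inr rfl); omega

theorem three_pow_mod_eight (n : ℕ) : 3 ^ (2 * n) % 8 = 1 := by
  rw [pow_mul, Nat.pow_mod]
  norm_num

/-- The case of characteristic three. -/
theorem compEq_three {f a : ℕ} (hq : 3 ^ f = 2 * a + 1) (hf : 2 ≤ f) (h : CompEq a (a + 1)) :
    3 ^ f = 9 ∨ ∃ r s, r.Prime ∧ s.Prime ∧ 3 ^ f - 1 = 2 * r ∧ 3 ^ f + 1 = 4 * s := by
  rcases Nat.even_or_odd' f with ⟨k, rfl | rfl⟩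
  · have h8 := three_pow_mod_eight k
    rcases Nat.lt_or_ge a 5 with h5 | h5
    · have h9 : 9 ≤ 3 ^ (2 * k) := le_trans (by norm_num) (Nat.pow_le_pow_right (by norm_num) hf)
      omega
    · exfalso
      have := h.prime_of_dvd (d := 4) (by omega) (by norm_num) (by omega)
      norm_num at this
  · have h27 : 27 ≤ 3 ^ (2 * k + 1) :=
      le_trans (by norm_num) (Nat.pow_le_pow_right (by norm_num) (show 3 ≤ 2 * k + 1 by omega))
    have h8 : 3 ^ (2 * k + 1) % 8 = 3 := by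
      rw [pow_succ, Nat.mul_mod, three_pow_mod_eight]
    obtain ⟨s, hs⟩ : 2 ∣ a + 1 := by omega
    have hnp : ¬ (a + 1).Prime := fun hp => by
      have := (Nat.prime_dvd_prime_iff_eq Nat.prime_two hp).1 ⟨s, hs⟩; omega
    exact Or.inr ⟨a, s, h.symm.prime_other (by omega) hnp (by omega) (by omega),
      h.symm.prime_of_dvd ⟨2, by omega⟩ (by omega) (by omega), by omega, by omega⟩

variable {F : Type*} [Field F] [Fintype F]

omit [Fintype F] in
theorem sq_eq_one_of_mk_eq_one {x : SL(2, F)}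
    (hx : (QuotientGroup.mk' _ x : ProjectiveSpecialLinearGroup (Fin 2) F) = 1) : x ^ 2 = 1 := by
  have hz : x ∈ Subgroup.center (SL(2, F)) := (QuotientGroup.eq_one_iff x).1 hx
  obtain ⟨r, hr, hA⟩ := Matrix.SpecialLinearGroup.mem_center_iff.1 hz
  have h2 : r ^ 2 = 1 := by simpa using hr
  refine Subtype.ext ?_
  show (x : Matrix (Fin 2) (Fin 2) F) ^ 2 = 1
  rw [← hA, ← map_pow, h2, map_one]

/-- Elements of order divisible by the torus orders. -/
theorem exists_torus_orderOf {e d : ℕ} (he : e = Nat.card F - 1 ∨ e = Nat.card F + 1) (he3 : 3 ≤ e)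
    (hd : ∀ o : ℕ, e ∣ 2 * o → d ∣ o) :
    ∃ y : ProjectiveSpecialLinearGroup (Fin 2) F, d ∣ orderOf y := by
  obtain ⟨g, -, hg, -⟩ := CfsgLib.SL2.exists_torus_generator (F := F) he he3
  refine ⟨QuotientGroup.mk' _ g, hd _ ?_⟩
  rw [← hg]
  refine orderOf_dvd_of_pow_eq_one ?_
  rw [mul_comm, pow_mul]
  exact sq_eq_one_of_mk_eq_one (by rw [map_pow, pow_orderOf_eq_one])

theorem compEq_of_torus (hoc : OC (ProjectiveSpecialLinearGroup (Fin 2) F)) {A B : ℕ}
    (hA : ∃ y : ProjectiveSpecialLinearGroup (Fin 2) F, A ∣ orderOf y)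
    (hB : ∃ y : ProjectiveSpecialLinearGroup (Fin 2) F, B ∣ orderOf y) : CompEq A B := by
  intro a b ha hb ha1 hap hb1 hbp
  haveI : Finite (ProjectiveSpecialLinearGroup (Fin 2) F) := by
    classical
    haveI : Finite (SL(2, F)) := inferInstance
    exact Quotient.finite _
  obtain ⟨yA, hyA⟩ := hA
  obtain ⟨yB, hyB⟩ := hB
  rcases ha with ha | ha <;> rcases hb with hb | hb
  · exact hoc.eq (ha.trans hyA) (hb.trans hyA) ha1 hap hb1 hbp
  · exact hoc.eq (ha.trans hyA) (hb.trans hyB) ha1 hap hb1 hbp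
  · exact hoc.eq (ha.trans hyB) (hb.trans hyA) ha1 hap hb1 hbp
  · exact hoc.eq (ha.trans hyB) (hb.trans hyB) ha1 hap hb1 hbp

/-- The possible fields. -/
theorem psl_outcome {G : Type*} [Group G] [Finite G] (hoc : OC G) {F : Type} [Field F] [Fintype F]
    (h4 : 4 ≤ Fintype.card F) (e : G ≃* ProjectiveSpecialLinearGroup (Fin 2) F) : Outcome G := by
  have hoc' := hoc.of_equiv e
  have hcard : Nat.card F = Fintype.card F := Nat.card_eq_fintype_card
  obtain ⟨ℓ, hchar⟩ := CharP.exists F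
  obtain ⟨⟨f, hf0⟩, hℓ, hqf⟩ := FiniteField.card F ℓ
  simp only [PNat.mk_coe] at hqf
  rcases hℓ.eq_two_or_odd' with rfl | hodd
  · have hf2 : 2 ≤ f := by
      by_contra hlt
      have : f = 1 := by omega
      subst this
      omega
    have h2 : 2 ∣ Fintype.card F := hqf ▸ dvd_pow_self 2 (by omega)
    have hA := exists_torus_orderOf (F := F) (d := 2 ^ f - 1) (Or.inl rfl) (by omega) fun o ho =>
      (Nat.Coprime.dvd_of_dvd_mul_left (Nat.coprime_two_right.2 (Nat.odd_iff.2 (by omega)))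
        (by rwa [hcard, hqf] at ho))
    have hB := exists_torus_orderOf (F := F) (d := 2 ^ f + 1) (Or.inr rfl) (by omega) fun o ho =>
      (Nat.Coprime.dvd_of_dvd_mul_left (Nat.coprime_two_right.2 (Nat.odd_iff.2 (by omega)))
        (by rwa [hcard, hqf] at ho))
    rcases compEq_even hf2 (compEq_of_torus hoc' hA hB) with rfl | rfl | rfl | ⟨hp, r, hr, hr'⟩
    · haveI : Fact (Nat.Prime 5) := ⟨by norm_num⟩
      obtain ⟨e4⟩ := Cfsg.Agent.S0252.result (F := F) (by rw [hqf]; norm_num)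
      obtain ⟨e5⟩ := Cfsg.Agent.S0253.result (F := ZMod 5) (ZMod.card 5)
      exact Or.inl ⟨ZMod 5, inferInstance, inferInstance, Or.inl (ZMod.card 5),
        ⟨e.trans (e4.trans e5.symm)⟩⟩
    · exact Or.inl ⟨F, inferInstance, inferInstance, by rw [hqf]; norm_num, ⟨e⟩⟩
    · exact Or.inl ⟨F, inferInstance, inferInstance, by rw [hqf]; norm_num, ⟨e⟩⟩
    · exact Or.inr (Or.inr (Or.inr (Or.inr ⟨F, inferInstance, inferInstance, f, r, hp, hr, hr', hqf, ⟨e⟩⟩)))
  obtain ⟨a, ha⟩ : ∃ a, Fintype.card F = 2 * a + 1 := by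
    obtain ⟨b, hb⟩ := (hqf ▸ hodd.pow : Odd (Fintype.card F))
    exact ⟨b, hb⟩
  have hA := exists_torus_orderOf (F := F) (d := a) (Or.inl rfl) (by omega) fun o ho =>
    Nat.dvd_of_mul_dvd_mul_left (by norm_num : 0 < 2) (by rwa [show Nat.card F - 1 = 2 * a by omega] at ho)
  have hB := exists_torus_orderOf (F := F) (d := a + 1) (Or.inr rfl) (by omega) fun o ho =>
    Nat.dvd_of_mul_dvd_mul_left (by norm_num : 0 < 2)
      (by rwa [show Nat.card F + 1 = 2 * (a + 1) by omega] at ho)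
  have hce := compEq_of_torus hoc' hA hB
  by_cases h3 : 3 ∣ Fintype.card F
  · obtain rfl : ℓ = 3 := ((Nat.prime_dvd_prime_iff_eq Nat.prime_three hℓ).1
      (Nat.prime_three.dvd_of_dvd_pow (hqf ▸ h3))).symm
    have hf2 : 2 ≤ f := by
      by_contra hlt
      have : f = 1 := by omega
      subst this
      omega
    rcases compEq_three (hqf ▸ ha) hf2 hce with h9 | ⟨r, s, hr, hs, e1, e2⟩
    · exact Or.inl ⟨F, inferInstance, inferInstance, by rw [hqf, h9]; norm_num, ⟨e⟩⟩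
    · exact Or.inr (Or.inr (Or.inr (Or.inl
        ⟨F, inferInstance, inferInstance, f, r, s, hr, hs, e1, e2, hqf, ⟨e⟩⟩)))
  · rcases compEq_odd ha (by omega) h3 hce with h | h | h | h <;>
      exact Or.inl ⟨F, inferInstance, inferInstance, by rw [h]; norm_num, ⟨e⟩⟩

end CfsgLib.OneComposite
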