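import Cfsg.Agent.Lib.OneComposite.PSLTwo
import Cfsg.Agent.Lib.Suzuki.LieBridge
import Cfsg.Agent.Lib.Suzuki.Partition
import Cfsg.Agent.Lib.Suzuki.SylowTwo
import Cfsg.Agent.Lib.SuzukiIdent.Classification
import Cfsg.Agent.Lib.ClassicalLinear.Card

/-!
Suzuki groups and CIT groups with at most one composite element order.
-/

set_option autoImplicit false

open Cfsg

namespace CfsgLib.OneComposite

theorem suzuki_field {F : Type*} [Field F] {m : ℕ} (h : CfsgLib.Suzuki.Hyp F m)
    (hoc : OC (Cfsg.Sz F m)) : m = 1 := by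
  haveI := h.finite_group
  haveI := h.finite
  obtain ⟨g₁, g₂, hg₁, hg₂, c1, c2, -, -, -⟩ := h.two_tori
  obtain ⟨-, -, -, hprod⟩ := h.coprime_three
  set q := 2 ^ (2 * m + 1) with hq
  set r := 2 ^ (m + 1) with hr
  have hm := h.one_le
  have hqq : r * r = 2 * q := by rw [hr, hq, ← pow_add, ← pow_succ']; congr 1; omega
  have hr4 : 4 ≤ r := by
    rw [hr]; exact le_trans (by norm_num) (Nat.pow_le_pow_right (by norm_num) (show 2 ≤ m + 1 by omega))
  have h8 : 8 ≤ q := by nlinarith
  have hrq : r < q := by nlinarith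
  have h4 : orderOf (h.u 1 0) = 4 := h.orderOf_u one_ne_zero
  -- the orders of cyclic subgroups of odd order are primes
  have hprime : ∀ (C : Subgroup (Cfsg.Sz F m)), IsCyclic C → Odd (Nat.card C) → 1 < Nat.card C →
      (Nat.card C).Prime := by
    intro C hC hodd h1
    by_contra hp
    obtain ⟨g, hg⟩ := hC.exists_ofOrder_eq_natCard
    have := hoc.eq (g := (g : Cfsg.Sz F m)) (a := Nat.card C) (k := h.u 1 0)
      (by rw [Subgroup.orderOf_coe, hg]) h4.symm.dvd h1 hp (by norm_num) (by norm_num)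
    rw [this] at hodd
    exact absurd hodd (by decide)
  have hA : (q + r + 1).Prime := by
    have := hprime _ (h.torus_spec hg₁.1 hg₁.2).1 (by
      have h' := h.orders_odd (k := q + r + 1) (by simp [hq, hr])
      rwa [← c1] at h') (by
      show 1 < Nat.card (CfsgLib.Suzuki.tor g₁)
      rw [c1]; omega)
    rwa [show Nat.card (Subgroup.centralizer ({g₁} : Set (Cfsg.Sz F m))) = _ from c1] at this
  have hB : (q - r + 1).Prime := by
    have := hprime _ (h.torus_spec hg₂.1 hg₂.2).1 (by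
      have h' := h.orders_odd (k := q - r + 1) (by simp [hq, hr])
      rwa [← c2] at h') (by
      show 1 < Nat.card (CfsgLib.Suzuki.tor g₂)
      rw [c2]; omega)
    rwa [show Nat.card (Subgroup.centralizer ({g₂} : Set (Cfsg.Sz F m))) = _ from c2] at this
  have h5 : 5 ∣ CfsgLib.Suzuki.qq m := by
    rw [CfsgLib.Suzuki.qq, ← pow_mul, show (2 * m + 1) * 2 = 4 * m + 2 by ring, pow_add, pow_mul]
    rw [Nat.dvd_iff_mod_eq_zero, Nat.add_mod, Nat.mul_mod, Nat.pow_mod]
    norm_num
  rw [← hprod] at h5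
  rcases (Nat.Prime.dvd_mul (by norm_num : Nat.Prime 5)).1 h5 with e | e
  · have := (Nat.prime_dvd_prime_iff_eq (by norm_num) hA).1 e
    omega
  · have h5' := (Nat.prime_dvd_prime_iff_eq (by norm_num) hB).1 e
    by_contra hm1
    have hr8 : 8 ≤ r := by
      rw [hr]; exact le_trans (by norm_num) (Nat.pow_le_pow_right (by norm_num) (show 3 ≤ m + 1 by omega))
    have : 4 * r ≤ q := by nlinarith
    omega

theorem suzuki_outcome {G : Type*} [Group G] [Finite G] (hoc : OC G) (hS : Cfsg.Lie.IsoSuzuki G) :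
    Outcome G := by
  obtain ⟨F, i, j, m, hm, hF, ⟨e⟩⟩ := hS
  have h := CfsgLib.Suzuki.Hyp.of_fintype hm hF
  haveI := h.finite_group
  obtain rfl := suzuki_field h (hoc.of_equiv (e.trans h.lieEquiv.symm))
  exact Or.inr (Or.inr (Or.inl ⟨F, i, j, by rw [hF]; norm_num, ⟨e⟩⟩))

/-- A simple group of this kind isomorphic to some `PSL₂`. -/
theorem psl_outcome_of_simple {G : Type*} [Group G] [Finite G] [IsSimpleGroup G]
    (hna : ∃ a b : G, a * b ≠ b * a) (hoc : OC G) {F : Type} [Field F] [Fintype F]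
    (e : G ≃* Matrix.ProjectiveSpecialLinearGroup (Fin 2) F) : Outcome G := by
  refine psl_outcome hoc ?_ e
  by_contra h
  have hc := CfsgLib.ClassicalLinear.card_PSL_two (F := F) (q := Fintype.card F) rfl
  rw [← Nat.card_congr e.toEquiv] at hc
  have hle : Fintype.card F ≤ 3 := by omega
  have h1 : 1 < Fintype.card F := Fintype.one_lt_card
  have hd : Nat.card G ∣ 2 ^ 4 * 3 ^ 4 := by
    have hd0 : Nat.card G ∣ Fintype.card F * (Fintype.card F ^ 2 - 1) := Dvd.intro_left _ hc
    rcases (by omega : Fintype.card F = 2 ∨ Fintype.card F = 3) with hq | hq <;> rw [hq] at hd0 <;>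
      exact hd0.trans (by norm_num)
  have hs := CfsgLib.CharTheory.isSolvable_of_card_dvd_pow_mul_pow 2 3 4 4 Nat.prime_two Nat.prime_three hd
  obtain ⟨a, b, hab⟩ := hna
  exact hab (IsSimpleGroup.comm_iff_isSolvable.2 hs a b)

/-- The CIT case. -/
theorem cit_outcome {G : Type*} [Group G] [Finite G] [IsSimpleGroup G]
    (hna : ∃ a b : G, a * b ≠ b * a) (hoc : OC G) (hcit : CIT.IsCIT G) : Outcome G := by
  rcases CfsgLib.SuzukiIdent.simple_cit hna hcit with ⟨F, _, _, -, ⟨e⟩⟩ | h | hS
  · exact psl_outcome_of_simple hna hoc e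
  · exact Or.inr (Or.inl h)
  · exact suzuki_outcome hoc hS

end CfsgLib.OneComposite
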