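import Cfsg.Agent.Lib.OneComposite.Induced
import Cfsg.Agent.Lib.OneComposite.Suzuki

/-!
The action on the cosets of the strongly embedded subgroup.
-/

set_option autoImplicit false
set_option linter.style.haveILetI false

open Cfsg
open scoped Pointwise

namespace CfsgLib.OneComposite

namespace Ctx

variable {G : Type*} [Group G] [Finite G] {p : ℕ} (c : Ctx G p)

/-- The point fixed by `M`. -/
def pt : G ⧸ c.M := QuotientGroup.mk 1

theorem smul_pt_iff {g : G} : g • c.pt = c.pt ↔ g ∈ c.M := by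
  rw [pt, TwoFusion.smul_mk_eq_iff]; simp

/-- The stabiliser of `pt` and `x`. -/
def D (x : G ⧸ c.M) : Subgroup G := c.M ⊓ MulAction.stabilizer G x

theorem mem_D {x : G ⧸ c.M} {g : G} : g ∈ c.D x ↔ g ∈ c.M ∧ g • x = x := Iff.rfl

/-- The action of the two-point stabiliser on `E`. -/
def actD (x : G ⧸ c.M) : c.D x →* MulAut ↥(c.E : Subgroup G) := c.act.comp (Subgroup.inclusion inf_le_left)

theorem actD_mem (x : G ⧸ c.M) (d : c.D x) : c.actD x d ∈ c.H := c.act_mem_H _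

theorem card_fixing : Nat.card (TwoFusion.fixingInvolutions c.M c.pt) = Nat.card ↥(c.E : Subgroup G) - 1 := by
  have h : TwoFusion.fixingInvolutions c.M c.pt = ((c.E : Subgroup G) : Set G) \ {1} := by
    ext t
    constructor
    · rintro ⟨ht, hx⟩
      refine ⟨c.mem_E_of_two_elt (c.smul_pt_iff.1 hx) ht, fun h1 => ?_⟩
      rw [Set.mem_singleton_iff] at h1
      rw [h1, orderOf_one] at ht
      omega
    · rintro ⟨ht, ht1⟩
      exact ⟨c.order_two ht ht1, c.smul_pt_iff.2 (c.E_le_M ht)⟩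
  rw [Nat.card_coe_set_eq, h, Set.ncard_sdiff_singleton_of_mem (one_mem (c.E : Subgroup G))]
  rfl

variable [IsSimpleGroup G]

theorem card_swapping {x : G ⧸ c.M} (hx : x ≠ c.pt) :
    Nat.card (TwoFusion.swappingInvolutions c.M c.pt x) = Nat.card ↥(c.E : Subgroup G) - 1 :=
  (TwoFusion.card_swappingInvolutions c.se (Ne.symm hx)).trans c.card_fixing

theorem exists_swap_pt {x : G ⧸ c.M} (hx : x ≠ c.pt) : ∃ t : G, orderOf t = 2 ∧ t • c.pt = x ∧ t • x = c.pt := by
  have h8 := c.rank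
  have hne : Nonempty (TwoFusion.swappingInvolutions c.M c.pt x) := by
    refine (Nat.card_pos_iff.1 ?_).1
    rw [c.card_swapping hx]
    omega
  obtain ⟨t, ht, htx⟩ := hne
  exact ⟨t, ht, htx, TwoFusion.smul_swap ht htx⟩

theorem D_odd {x : G ⧸ c.M} (hx : x ≠ c.pt) : Odd (Nat.card (c.D x)) := by
  obtain ⟨t, ht, htx, -⟩ := c.exists_swap_pt hx
  have htM : t ∉ c.M := fun h => hx (htx ▸ c.smul_pt_iff.2 h)
  refine (c.se.2.2 t htM).of_dvd_nat (Subgroup.card_dvd_of_le fun g hg => ⟨hg.1, t⁻¹ * g * t, ?_, ?_⟩)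
  · have h2 : g • t • c.pt = t • c.pt := by rw [htx]; exact hg.2
    exact c.smul_pt_iff.1 (by rw [mul_smul, mul_smul, h2, inv_smul_smul])
  · show t * (t⁻¹ * g * t) * t⁻¹ = g
    group

theorem D_transitive {x : G ⧸ c.M} (hx : x ≠ c.pt) {s t : G} (hs : s ∈ (c.E : Subgroup G)) (hs1 : s ≠ 1)
    (ht : t ∈ (c.E : Subgroup G)) (ht1 : t ≠ 1) : ∃ d ∈ c.D x, d * s * d⁻¹ = t := by
  obtain ⟨u, hu, hux, -⟩ := c.exists_swap_pt hx
  obtain ⟨d, hd, hd', h⟩ := TwoFusion.exists_conj_in_two_point_stabilizer c.se hu (x := c.pt) (by rwa [hux])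
    (s := s) (t := t) ⟨c.order_two hs hs1, c.smul_pt_iff.2 (c.E_le_M hs)⟩
    ⟨c.order_two ht ht1, c.smul_pt_iff.2 (c.E_le_M ht)⟩
  exact ⟨d, ⟨c.smul_pt_iff.1 hd, by rw [← hux]; exact hd'⟩, h⟩

/-- No nontrivial element of odd order centralises `E` and a conjugate of `E` not in `M`. -/
theorem eq_one_of_two_conj {u a : G} (hu : orderOf u = 2) (huM : u ∉ c.M) (ha : Odd (orderOf a))
    (hc : ∀ e ∈ (c.E : Subgroup G), a * e = e * a)
    (hc' : ∀ e ∈ (c.E : Subgroup G), a * (u * e * u⁻¹) = u * e * u⁻¹ * a) : a = 1 := by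
  by_contra ha1
  have hCM := c.centralizer_le_M_of_odd ha ha1 hc
  refine huM (CoprimeAction.mem_normalizer_of_conj_mem fun e he => ?_)
  by_cases he1 : e = 1
  · simp [he1]
  · refine c.mem_E_of_two_elt (hCM (Subgroup.mem_centralizer_singleton_iff.2 (hc' e he).symm)) ?_
    exact (orderOf_injective (MulAut.conj u).toMonoidHom (MulAut.conj u).injective e).trans (c.order_two he he1)

theorem actD_injective {x : G ⧸ c.M} (hx : x ≠ c.pt) : Function.Injective (c.actD x) := by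
  rw [injective_iff_map_eq_one]
  rintro ⟨a, ha⟩ hka
  obtain ⟨u, hu, hux, hxu⟩ := c.exists_swap_pt hx
  have huM : u ∉ c.M := fun h => hx (hux ▸ c.smul_pt_iff.2 h)
  have huu : u⁻¹ = u := inv_eq_of_mul_eq_one_right (by rw [← pow_two, ← hu, pow_orderOf_eq_one])
  have hodd : ∀ g ∈ c.D x, Odd (orderOf g) := fun g hg =>
    (c.D_odd hx).of_dvd_nat (Subgroup.orderOf_dvd_natCard _ hg)
  have hc : ∀ e ∈ (c.E : Subgroup G), a * e = e * a := (c.act_eq_one_iff ⟨a, ha.1⟩).1 hka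
  refine Subtype.ext ?_
  show a = 1
  by_contra a1
  have haW : a ∈ c.W := c.mem_W_of_odd (hodd a ha) hc
  have hnf : c.NoFix := by
    by_contra h
    obtain ⟨d⟩ := c.fixData h
    rw [d.W_bot, Subgroup.mem_bot] at haW
    exact a1 haW
  set b := u * a * u⁻¹ with hb
  have hbD : b ∈ c.D x := by
    refine ⟨c.smul_pt_iff.1 ?_, ?_⟩
    · rw [hb, huu, mul_smul, mul_smul, hux, ha.2, hxu]
    · show b • x = x
      rw [hb, huu, mul_smul, mul_smul, hxu, c.smul_pt_iff.2 ha.1, hux]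
  have hMW : c.M ≤ Subgroup.normalizer (c.W : Set G) := c.normalizer_le_W
  have hcu : ∀ e ∈ (c.E : Subgroup G), b * (u * e * u⁻¹) = u * e * u⁻¹ * b := by
    intro e he
    rw [hb, show u * a * u⁻¹ * (u * e * u⁻¹) = u * (a * e) * u⁻¹ by group, hc e he]
    group
  have hab : a * b = b * a := by
    have h1 : a * b * a⁻¹ * b⁻¹ ∈ c.W := by
      rw [show a * b * a⁻¹ * b⁻¹ = a * (b * a⁻¹ * b⁻¹) by group]
      exact mul_mem haW (CoprimeAction.conj_mem (hMW hbD.1) (inv_mem haW))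
    have haM' : u⁻¹ * a * u ∈ c.M := by
      rw [huu]
      have := hbD.1
      rwa [hb, huu] at this
    have h2 : u⁻¹ * (a * b * a⁻¹ * b⁻¹) * u ∈ c.W := by
      rw [hb, show u⁻¹ * (a * (u * a * u⁻¹) * a⁻¹ * (u * a * u⁻¹)⁻¹) * u =
        (u⁻¹ * a * u) * a * (u⁻¹ * a * u)⁻¹ * a⁻¹ by group]
      exact mul_mem (CoprimeAction.conj_mem (hMW haM') haW) (inv_mem haW)
    have h3 := c.eq_one_of_two_conj hu huM (hodd _ (mul_mem (mul_mem (mul_mem ha hbD) (inv_mem ha)) (inv_mem hbD)))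
      (fun e he => (c.W_comm_E he h1).symm) fun e he => by
        have h4 := c.W_comm_E he h2
        calc a * b * a⁻¹ * b⁻¹ * (u * e * u⁻¹) = u * ((u⁻¹ * (a * b * a⁻¹ * b⁻¹) * u) * e) * u⁻¹ := by group
          _ = u * (e * (u⁻¹ * (a * b * a⁻¹ * b⁻¹) * u)) * u⁻¹ := by rw [h4]
          _ = _ := by group
    rwa [mul_inv_eq_one, mul_inv_eq_iff_eq_mul] at h3
  have hfin : b ≠ a ∧ b ≠ a⁻¹ := by
    constructor
    · exact fun e => a1 (c.eq_one_of_two_conj hu huM (hodd a ha) hc fun x hx => e ▸ hcu x hx)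
    · intro e
      refine a1 (c.eq_one_of_two_conj hu huM (hodd a ha) hc fun x hx => ?_)
      have := hcu x hx
      rw [e] at this
      simpa using ((show Commute a⁻¹ (u * x * u⁻¹) from this).inv_left).eq
  set d := a * b with hd
  have hd1 : d ≠ 1 := fun e => hfin.2 (eq_inv_of_mul_eq_one_right e)
  have hdu : d * u = u * d := by
    have huu' : u * u = 1 := mul_eq_one_iff_eq_inv.2 huu.symm
    calc d * u = a * (u * a * u⁻¹) * u := rfl
      _ = a * u * a := by group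
      _ = u * (u * a * u⁻¹ * a) := by rw [huu]; simp only [← mul_assoc, huu', one_mul]
      _ = u * (b * a) := by rw [hb]
      _ = u * d := by rw [← hab]
  obtain ⟨e, he, he1⟩ := c.exists_ne_one
  obtain ⟨g, hg⟩ := isConj_iff.1 (TwoFusion.isConj_involutions c.se (c.order_two he he1) hu)
  set d' := g⁻¹ * d * g with hd'
  have hd'e : d' * e = e * d' := by
    calc d' * e = g⁻¹ * (d * (g * e * g⁻¹)) * g := by rw [hd']; group
      _ = g⁻¹ * (g * e * g⁻¹ * d) * g := by rw [hg, hdu]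
      _ = _ := by rw [hd']; group
  have hd'M : d' ∈ c.M := c.centralizer_le_M he he1 (Subgroup.mem_centralizer_singleton_iff.2 hd'e)
  have hd'act : c.act ⟨d', hd'M⟩ = 1 :=
    hnf _ (c.act_mem_H _) ⟨e, he⟩ (fun h => he1 (congrArg Subtype.val h)) ((c.act_fix_iff _ _).2 hd'e)
  have hd'o : Odd (orderOf d') := by
    have h := hodd d (mul_mem ha hbD)
    rwa [hd', show g⁻¹ * d * g = MulAut.conj g⁻¹ d by simp,
      show orderOf (MulAut.conj g⁻¹ d) = orderOf d from
        orderOf_injective (MulAut.conj g⁻¹).toMonoidHom (MulAut.conj g⁻¹).injective d]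
  have hd'1 : d' ≠ 1 := fun h => hd1 (by
    rw [show d = g * d' * g⁻¹ by rw [hd']; group, h]; group)
  have hCM := c.centralizer_le_M_of_odd hd'o hd'1 ((c.act_eq_one_iff _).1 hd'act)
  have ha' : g⁻¹ * a * g ∈ c.M := hCM (by
    rw [Subgroup.mem_centralizer_singleton_iff, hd']
    have had : a * d = d * a := by rw [hd, mul_assoc a b a, ← hab]
    calc g⁻¹ * a * g * (g⁻¹ * d * g) = g⁻¹ * (a * d) * g := by group
      _ = g⁻¹ * (d * a) * g := by rw [had]
      _ = _ := by group)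
  have hE' : e * ((g⁻¹ * a * g) * e⁻¹ * (g⁻¹ * a * g)⁻¹) ∈ (c.E : Subgroup G) :=
    mul_mem he (CoprimeAction.conj_mem ha' (inv_mem he))
  have hba : g⁻¹ * (b * a⁻¹) * g = e * ((g⁻¹ * a * g) * e⁻¹ * (g⁻¹ * a * g)⁻¹) := by
    rw [hb, ← hg]; group
  refine hfin.1 (mul_inv_eq_one.1 ?_)
  have hodd' : Odd (orderOf (g⁻¹ * (b * a⁻¹) * g)) := by
    rw [show g⁻¹ * (b * a⁻¹) * g = MulAut.conj g⁻¹ (b * a⁻¹) by simp,
      show orderOf (MulAut.conj g⁻¹ (b * a⁻¹)) = orderOf (b * a⁻¹) from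
        orderOf_injective (MulAut.conj g⁻¹).toMonoidHom (MulAut.conj g⁻¹).injective _]
    exact hodd _ (mul_mem hbD (inv_mem ha))
  have h1 : g⁻¹ * (b * a⁻¹) * g = 1 := by
    by_contra h
    rw [hba] at h
    rw [hba, c.order_two hE' h] at hodd'
    exact absurd hodd' (by decide)
  have : b * a⁻¹ = g * (g⁻¹ * (b * a⁻¹) * g) * g⁻¹ := by group
  rw [this, h1]
  group

theorem card_E_pred_dvd_card_D {x : G ⧸ c.M} (hx : x ≠ c.pt) :
    (Nat.card ↥(c.E : Subgroup G) - 1) ∣ Nat.card (c.D x) := by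
  haveI := mulAut_finite (A := ↥(c.E : Subgroup G))
  obtain ⟨e, he⟩ := c.E_ne_one
  have h : MulAction.orbit (c.actD x).range e = {(1 : ↥(c.E : Subgroup G))}ᶜ := by
    ext y
    constructor
    · rintro ⟨h, rfl⟩ hy
      refine he ((h : MulAut ↥(c.E : Subgroup G)).injective ?_)
      rw [map_one]; exact hy
    · intro hy
      obtain ⟨d, hd, hde⟩ := c.D_transitive hx e.2 (fun h => he (Subtype.ext h)) y.2 (fun h => hy (Subtype.ext h))
      exact ⟨⟨c.actD x ⟨d, hd⟩, ⟨d, hd⟩, rfl⟩, Subtype.ext hde⟩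
  have h2 : (MulAction.stabilizer (c.actD x).range e).index ∣ Nat.card (c.actD x).range := Subgroup.index_dvd_card _
  rw [MulAction.index_stabilizer, h, Set.ncard_compl, Set.ncard_singleton] at h2
  exact h2.trans (Subgroup.card_range_dvd _)

/-- What the analysis of the two-point stabilisers uses. -/
structure PointData (q : ℕ) : Prop where
  prime : q.Prime
  ne_two : q ≠ 2
  card_E : Nat.card ↥(c.E : Subgroup G) = q + 1
  sq_H : ¬ q * q ∣ Nat.card c.H
  inverts : ∀ {x : G ⧸ c.M}, x ≠ c.pt → ∀ {z : G}, z ∈ c.D x → orderOf z = q →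
    ∀ {t : G}, orderOf t = 2 → t • c.pt = x → t * z * t⁻¹ = z⁻¹

theorem conj_swap_mem {x : G ⧸ c.M} {z t : G} (hz : z ∈ c.D x) (ht : orderOf t = 2) (htx : t • c.pt = x) :
    t * z * t⁻¹ ∈ c.D x := by
  have h1 := TwoFusion.smul_swap ht htx
  have htt : t⁻¹ = t := inv_eq_of_mul_eq_one_right (by rw [← pow_two, ← ht, pow_orderOf_eq_one])
  refine ⟨c.smul_pt_iff.1 ?_, ?_⟩
  · rw [htt, mul_smul, mul_smul, htx, hz.2, h1]
  · show (t * z * t⁻¹) • x = x
    rw [htt, mul_smul, mul_smul, h1, c.smul_pt_iff.2 hz.1, htx]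

theorem actD_bijective_of_noFix (hn : c.NoFix) {x : G ⧸ c.M} (hx : x ≠ c.pt) :
    Nat.card (c.D x) = Nat.card ↥(c.E : Subgroup G) - 1 := by
  haveI := mulAut_finite (A := ↥(c.E : Subgroup G))
  refine Nat.dvd_antisymm ?_ (c.card_E_pred_dvd_card_D hx)
  rw [← c.card_H_of_noFix hn, Nat.card_congr (MonoidHom.ofInjective (c.actD_injective hx)).toEquiv]
  exact Subgroup.card_dvd_of_le fun h ⟨d, hd⟩ => hd ▸ c.actD_mem x d

theorem inverts_of_noFix (hn : c.NoFix) {x : G ⧸ c.M} (hx : x ≠ c.pt) {z : G} (hz : z ∈ c.D x)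
    {t : G} (ht : orderOf t = 2) (htx : t • c.pt = x) : t * z * t⁻¹ = z⁻¹ := by
  have hxt := TwoFusion.smul_swap ht htx
  let φ : TwoFusion.swappingInvolutions c.M c.pt x → c.D x := fun s =>
    ⟨t * s, c.smul_pt_iff.1 (by rw [mul_smul, s.2.2, hxt]), by
      show (t * (s : G)) • x = x
      rw [mul_smul, TwoFusion.smul_swap s.2.1 s.2.2, htx]⟩
  have hφ : Function.Injective φ := fun a b h => Subtype.ext (mul_left_cancel (congrArg Subtype.val h))
  obtain ⟨s, hs⟩ := ((Nat.bijective_iff_injective_and_card φ).2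
    ⟨hφ, (c.card_swapping hx).trans (c.actD_bijective_of_noFix hn hx).symm⟩).2 ⟨z, hz⟩
  have hts : t * (s : G) = z := congrArg Subtype.val hs
  have hss : (s : G)⁻¹ = s := inv_eq_of_mul_eq_one_right (by
    rw [← pow_two, ← show orderOf (s : G) = 2 from s.2.1, pow_orderOf_eq_one])
  have htt : t⁻¹ = t := inv_eq_of_mul_eq_one_right (by rw [← pow_two, ← ht, pow_orderOf_eq_one])
  have htt' : t * t = 1 := mul_eq_one_iff_eq_inv.2 htt.symm
  rw [← hts, mul_inv_rev, hss, htt]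
  simp only [← mul_assoc, htt', one_mul]

theorem card_H_prime_of_noFix (hn : c.NoFix) : (Nat.card c.H).Prime := by
  haveI := mulAut_finite (A := ↥(c.E : Subgroup G))
  obtain ⟨e, he⟩ := c.E_ne_one
  obtain ⟨g, hg⟩ : ∃ g : G, g ∉ c.M := by
    by_contra h
    push Not at h
    exact c.se.1 ((Subgroup.eq_top_iff' _).2 h)
  have hx : (QuotientGroup.mk g : G ⧸ c.M) ≠ c.pt := fun h => hg (by simpa [pt, QuotientGroup.eq] using h)
  set x : G ⧸ c.M := QuotientGroup.mk g
  obtain ⟨t, ht, htx, -⟩ := c.exists_swap_pt hx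
  have hcomm : ∀ a ∈ c.H, ∀ b ∈ c.H, a * b = b * a := by
    have hrange : ∀ a ∈ c.H, ∃ d : c.D x, c.actD x d = a := by
      intro a ha
      by_cases hae : a e = e
      · exact ⟨1, by rw [map_one, hn a ha e he hae]⟩
      obtain ⟨d, hd, hde⟩ := c.D_transitive hx e.2 (fun h => he (Subtype.ext h)) (a e).2
        (fun h => he (a.injective (by rw [map_one]; exact Subtype.ext h)))
      refine ⟨⟨d, hd⟩, ?_⟩
      have h2 : c.actD x ⟨d, hd⟩ e = a e := Subtype.ext hde
      have h3 := hn _ (mul_mem (inv_mem ha) (c.actD_mem x ⟨d, hd⟩)) e he (by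
        rw [MulAut.mul_apply, h2, ← MulAut.mul_apply _ a⁻¹ a, inv_mul_cancel, MulAut.one_apply])
      exact (inv_mul_eq_one.1 h3).symm
    intro a ha b hb
    obtain ⟨d, rfl⟩ := hrange a ha
    obtain ⟨d', rfl⟩ := hrange b hb
    rw [← map_mul, ← map_mul]
    refine congrArg _ (Subtype.ext ?_)
    show (d : G) * d' = d' * d
    have h1 := c.inverts_of_noFix hn hx (mul_mem d.2 d'.2) ht htx
    rw [show t * ((d : G) * d') * t⁻¹ = (t * d * t⁻¹) * (t * d' * t⁻¹) by group,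
      c.inverts_of_noFix hn hx d.2 ht htx, c.inverts_of_noFix hn hx d'.2 ht htx, mul_inv_rev] at h1
    have := congrArg (fun g => g⁻¹) h1
    simpa using this.symm
  have hcard := c.card_H_of_noFix hn
  have h8 := c.rank
  haveI : Nontrivial c.H := Finite.one_lt_card_iff_nontrivial.1 (by omega)
  obtain ⟨z, hz⟩ := exists_ne (1 : c.H)
  have hz1 : (z : MulAut ↥(c.E : Subgroup G)) ≠ 1 := fun h => hz (Subtype.ext h)
  obtain ⟨hl, hl2, -⟩ := c.H_order z.2 hz1
  suffices h : c.H = Subgroup.zpowers (z : MulAut ↥(c.E : Subgroup G)) by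
    rw [h, Nat.card_zpowers]; exact hl
  refine le_antisymm (fun a ha => ?_) ((Subgroup.zpowers_le).2 z.2)
  by_contra hne
  haveI := c.E_nontrivial
  have ha1 : a ≠ 1 := fun h => hne (h ▸ one_mem _)
  have hcl : Subgroup.closure ({a, (z : MulAut _)} : Set (MulAut ↥(c.E : Subgroup G))) ≤ c.H := by
    rw [Subgroup.closure_le]
    rintro y (rfl | rfl)
    · exact ha
    · exact z.2
  refine no_elementary c.E_comm hl (c.E_coprime hl hl2)
    (orderOf_dvd_iff_pow_eq_one.1 (c.H_commute ha z.2 ha1 hz1 (hcomm _ ha _ z.2)).dvd)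
    (pow_orderOf_eq_one _) hz1 (hcomm _ ha _ z.2) hne fun y hy hy1 e' he' => ?_
  by_contra h
  exact hy1 (hn y (hcl hy) e' h he')

theorem pointData_of_noFix (hn : c.NoFix) : c.PointData (Nat.card ↥(c.E : Subgroup G) - 1) := by
  have hp := c.card_H_of_noFix hn ▸ c.card_H_prime_of_noFix hn
  have h8 := c.rank
  refine ⟨hp, by omega, by omega, ?_, fun hx _ hz _ _ ht htx => c.inverts_of_noFix hn hx hz ht htx⟩
  rw [c.card_H_of_noFix hn]
  intro h
  have := Nat.le_of_dvd (by omega) h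
  nlinarith [hp.two_le]

theorem pointData_of_fix (d : c.FixData) : c.PointData d.q := by
  have hE := d.card_E
  have hq2 : d.q ≠ 2 := by have := c.rank; omega
  refine ⟨d.hq, hq2, hE, ?_, ?_⟩
  · rw [d.card_H]
    intro h
    exact d.hqp ((Nat.prime_dvd_prime_iff_eq d.hq c.two.prime).1 (Nat.dvd_of_mul_dvd_mul_left d.hq.pos h))
  · intro x hx z hz hzq t ht htx
    haveI : Fact d.q.Prime := ⟨d.hq⟩
    have hw := c.conj_swap_mem hz ht htx
    have ho : ∀ w (hw : w ∈ c.D x), orderOf w = d.q → orderOf (c.actD x ⟨w, hw⟩) = d.q := fun w hw h => by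
      rw [orderOf_injective (c.actD x) (c.actD_injective hx), Subgroup.orderOf_mk, h]
    have hwq : orderOf (t * z * t⁻¹) = d.q :=
      (orderOf_injective (MulAut.conj t).toMonoidHom (MulAut.conj t).injective z).trans hzq
    obtain ⟨i, hi⟩ := Subgroup.mem_zpowers_iff.1
      (d.uniq _ (c.actD_mem x ⟨_, hw⟩) _ (c.actD_mem x ⟨z, hz⟩) (ho _ hw hwq) (ho z hz hzq))
    rw [← map_zpow] at hi
    have hzi : z ^ i = t * z * t⁻¹ := by
      have := congrArg Subtype.val (c.actD_injective hx hi)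
      simpa using this
    have htt : t * t = 1 := by rw [← pow_two, ← ht, pow_orderOf_eq_one]
    have h2 : z ^ (i * i) = z := by
      rw [zpow_mul, hzi, conj_zpow, hzi]
      have : t⁻¹ = t := inv_eq_of_mul_eq_one_right htt
      rw [this]
      calc t * (t * z * t) * t = t * t * z * (t * t) := by group
        _ = z := by rw [htt]; group
    have hd : (d.q : ℤ) ∣ i * i - 1 := by
      rw [← hzq, orderOf_dvd_iff_zpow_eq_one, zpow_sub, h2, zpow_one, mul_inv_cancel]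
    rw [show i * i - 1 = (i - 1) * (i + 1) by ring] at hd
    rcases (Nat.prime_iff_prime_int.1 d.hq).dvd_or_dvd hd with h | h
    · exfalso
      rw [← hzq, orderOf_dvd_iff_zpow_eq_one, zpow_sub, zpow_one, mul_inv_eq_one, hzi] at h
      rw [mul_inv_eq_iff_eq_mul] at h
      rcases c.two.order_of_commute_involution (hzq.symm ▸ d.hq) ht h.symm with e | e
      · exact hq2 (hzq.symm.trans e)
      · exact d.hqp (hzq.symm.trans e)
    · rw [← hzq, orderOf_dvd_iff_zpow_eq_one, zpow_add, zpow_one] at h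
      rw [← hzi, eq_inv_of_mul_eq_one_left h]

section
variable {c} {q : ℕ} (hP : c.PointData q)
include hP

theorem PointData.exists_z {x : G ⧸ c.M} (hx : x ≠ c.pt) : ∃ z ∈ c.D x, orderOf z = q := by
  haveI : Fact q.Prime := ⟨hP.prime⟩
  have h := c.card_E_pred_dvd_card_D hx
  rw [hP.card_E, Nat.add_sub_cancel] at h
  obtain ⟨z, hz⟩ := exists_prime_orderOf_dvd_card' q h
  exact ⟨z, z.2, by rw [Subgroup.orderOf_coe, hz]⟩

theorem PointData.not_inverted {x : G ⧸ c.M} (hx : x ≠ c.pt) {z : G} (hz : z ∈ c.D x) (hzq : orderOf z = q)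
    {a : G} (ha : a ∈ c.M) : a * z * a⁻¹ ≠ z⁻¹ := by
  intro h
  haveI : Fact q.Prime := ⟨hP.prime⟩
  set α := c.act ⟨a, ha⟩
  set ζ := c.act ⟨z, hz.1⟩ with hζ
  have hζo : orderOf ζ = q := by
    rw [show ζ = c.actD x ⟨z, hz⟩ from rfl, orderOf_injective _ (c.actD_injective hx), Subgroup.orderOf_mk, hzq]
  have h1 : α * ζ * α⁻¹ = ζ⁻¹ := by
    rw [← map_mul, ← map_inv, ← map_mul, ← map_inv]
    exact congrArg c.act (Subtype.ext h)
  have hpow : ∀ j : ℕ, α ^ (2 * j + 1) * ζ * (α ^ (2 * j + 1))⁻¹ = ζ⁻¹ := by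
    intro j
    induction j with
    | zero => simpa using h1
    | succ j ih =>
      have h2 : α * ζ⁻¹ * α⁻¹ = ζ := by
        have := congrArg (fun g => g⁻¹) h1
        simpa [mul_assoc] using this
      rw [show 2 * (j + 1) + 1 = (2 * j + 1) + 1 + 1 by ring, pow_succ', pow_succ']
      calc α * (α * α ^ (2 * j + 1)) * ζ * (α * (α * α ^ (2 * j + 1)))⁻¹
          = α * (α * (α ^ (2 * j + 1) * ζ * (α ^ (2 * j + 1))⁻¹) * α⁻¹) * α⁻¹ := by group
        _ = α * ζ * α⁻¹ := by rw [ih, h2]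
        _ = ζ⁻¹ := h1
  obtain ⟨j, hj⟩ := c.H_odd.of_dvd_nat (Subgroup.orderOf_dvd_natCard _ (c.act_mem_H ⟨a, ha⟩))
  have h3 := hpow j
  rw [← hj, pow_orderOf_eq_one, one_mul, inv_one, mul_one] at h3
  have h4 : orderOf ζ ∣ 2 := orderOf_dvd_of_pow_eq_one (by rw [pow_two]; exact mul_eq_one_iff_eq_inv.2 h3)
  rw [hζo] at h4
  exact hP.ne_two ((Nat.prime_dvd_prime_iff_eq hP.prime Nat.prime_two).1 h4)

theorem PointData.centralizer_le {x : G ⧸ c.M} (hx : x ≠ c.pt) {z : G} (hz : z ∈ c.D x) (hzq : orderOf z = q)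
    {a : G} (ha : a * z = z * a) : a ∈ c.M := by
  by_contra haM
  set y := a • c.pt with hy
  have hy1 : y ≠ c.pt := fun h => haM (c.smul_pt_iff.1 h)
  have hzy : z ∈ c.D y := ⟨hz.1, by
    show z • y = y
    rw [hy, ← mul_smul, ← ha, mul_smul, c.smul_pt_iff.2 hz.1]⟩
  obtain ⟨t, ht, htx, hxt⟩ := c.exists_swap_pt hy1
  refine hP.not_inverted hy1 hzy hzq (a := t * a) (c.smul_pt_iff.1 (by rw [mul_smul, ← hy, hxt])) ?_
  rw [← hP.inverts hy1 hzy hzq ht htx, show t * a * z * (t * a)⁻¹ = t * (a * z * a⁻¹) * t⁻¹ by group, ha,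
    mul_inv_cancel_right]

/-- An element of order `q` of a two-point stabiliser fixes exactly two points. -/
theorem PointData.fix_two {x y : G ⧸ c.M} (hx : x ≠ c.pt) (hy : y ≠ c.pt) {z : G} (hz : z ∈ c.D x)
    (hzq : orderOf z = q) (hzy : z • y = y) : y = x := by
  have hzy' : z ∈ c.D y := ⟨hz.1, hzy⟩
  obtain ⟨t, ht, htx, -⟩ := c.exists_swap_pt hx
  obtain ⟨s, hs, hsy, hys⟩ := c.exists_swap_pt hy
  have h1 := hP.inverts hx hz hzq ht htx
  have h2 := hP.inverts hy hzy' hzq hs hsy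
  have h2' : s * z⁻¹ * s⁻¹ = z := by
    have := congrArg (fun g => g⁻¹) h2
    simpa [mul_assoc] using this
  have hcomm : (s * t) * z = z * (s * t) := by
    rw [← mul_inv_eq_iff_eq_mul, show s * t * z * (s * t)⁻¹ = s * (t * z * t⁻¹) * s⁻¹ by group, h1, h2']
  have h3 := c.smul_pt_iff.2 (hP.centralizer_le hx hz hzq hcomm)
  rw [mul_smul, htx] at h3
  calc y = s • c.pt := hsy.symm
    _ = s • s • x := by rw [h3]
    _ = x := by rw [← mul_smul, show s * s = 1 by rw [← pow_two, ← hs, pow_orderOf_eq_one], one_smul]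

theorem PointData.mem_D_of_comm {x : G ⧸ c.M} (hx : x ≠ c.pt) {z : G} (hz : z ∈ c.D x) (hzq : orderOf z = q)
    {a : G} (ha : a * z = z * a) : a ∈ c.D x := by
  have haM := hP.centralizer_le hx hz hzq ha
  refine ⟨haM, ?_⟩
  have h1 : a • x ≠ c.pt := fun h => hx (by
    have h' : a • x = a • c.pt := h.trans (c.smul_pt_iff.2 haM).symm
    exact MulAction.injective a h')
  refine hP.fix_two hx h1 hz hzq ?_
  rw [← mul_smul, ← ha, mul_smul, hz.2]

theorem PointData.q_ne_p (hW : c.W ≠ ⊥) : q ≠ p := by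
  intro hqp
  haveI : Fact p.Prime := ⟨c.two.prime⟩
  obtain ⟨g, hg⟩ : ∃ g : G, g ∉ c.M := by
    by_contra h
    push Not at h
    exact c.se.1 ((Subgroup.eq_top_iff' _).2 h)
  have hx : (QuotientGroup.mk g : G ⧸ c.M) ≠ c.pt := fun h => hg (by simpa [pt, QuotientGroup.eq] using h)
  obtain ⟨z, hz, hzq⟩ := hP.exists_z hx
  have hMW : c.M ≤ Subgroup.normalizer (c.W : Set G) := c.normalizer_le_W
  set Z := Subgroup.zpowers z
  letI : MulAction Z c.W :=
    { smul := fun a w => ⟨(a : G) * w * (a : G)⁻¹,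
        CoprimeAction.conj_mem (hMW ((Subgroup.zpowers_le).2 hz.1 a.2)) w.2⟩
      one_smul := fun w => Subtype.ext (show (1 : G) * w * (1 : G)⁻¹ = w by simp)
      mul_smul := fun a b w => Subtype.ext
        (show ((a : G) * b) * w * ((a : G) * b)⁻¹ = (a : G) * ((b : G) * w * (b : G)⁻¹) * (a : G)⁻¹ by group) }
  have hZp : IsPGroup p Z := IsPGroup.of_card (n := 1) (by rw [Nat.card_zpowers, hzq, pow_one, hqp])
  have hpW : p ∣ Nat.card c.W := by
    haveI : Nontrivial c.W := (Subgroup.nontrivial_iff_ne_bot _).2 hW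
    obtain ⟨k, hk⟩ := IsPGroup.iff_card.1 c.W_pGroup
    have h1 := Finite.one_lt_card (α := c.W)
    rw [hk] at h1 ⊢
    exact dvd_pow_self p (by rintro rfl; simp at h1)
  obtain ⟨w, hw, hw1⟩ := hZp.exists_fixed_point_of_prime_dvd_card_of_fixed_point c.W hpW
    (a := 1) (fun a => Subtype.ext (show (a : G) * (1 : G) * (a : G)⁻¹ = 1 by group))
  have hwz : z * (w : G) * z⁻¹ = w := congrArg Subtype.val (hw ⟨z, Subgroup.mem_zpowers z⟩)
  rw [mul_inv_eq_iff_eq_mul] at hwz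
  have hwD := hP.mem_D_of_comm hx hz hzq hwz.symm
  have h1 : c.actD _ ⟨w, hwD⟩ = 1 := (c.act_eq_one_iff _).2 fun e he => (c.W_comm_E he w.2).symm
  exact hw1 (Subtype.ext (congrArg Subtype.val ((injective_iff_map_eq_one _).1 (c.actD_injective hx) _ h1)).symm)

theorem PointData.not_sq_dvd_M (hqp : q ≠ p) : ¬ q * q ∣ Nat.card c.M := by
  intro h
  haveI : Fact q.Prime := ⟨hP.prime⟩
  have hker : ¬ q ∣ Nat.card c.act.ker := by
    intro hd
    obtain ⟨x, hx⟩ := exists_prime_orderOf_dvd_card' q hd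
    obtain ⟨e, he, he1⟩ := c.exists_ne_one
    have hxo : orderOf ((x : c.M) : G) = q := by rw [Subgroup.orderOf_coe, Subgroup.orderOf_coe, hx]
    rcases c.two.order_of_commute_involution (hxo.symm ▸ hP.prime) (c.order_two he he1)
      ((c.act_eq_one_iff _).1 x.2 e he) with h | h
    · exact hP.ne_two (hxo.symm.trans h)
    · exact hqp (hxo.symm.trans h)
  have hcard : Nat.card c.M = Nat.card c.act.ker * Nat.card c.H := by
    rw [show Nat.card c.H = c.act.ker.index from (Subgroup.index_ker c.act).symm]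
    exact (Subgroup.card_mul_index _).symm
  rw [hcard] at h
  exact hP.sq_H (Nat.Coprime.dvd_of_dvd_mul_left
    (Nat.Coprime.mul_left ((hP.prime.coprime_iff_not_dvd).2 hker) ((hP.prime.coprime_iff_not_dvd).2 hker)) h)

/-- `M` is transitive on the other points. -/
theorem PointData.transitive (hqp : q ≠ p) {x y : G ⧸ c.M} (hx : x ≠ c.pt) (hy : y ≠ c.pt) :
    ∃ m ∈ c.M, m • x = y := by
  haveI : Fact q.Prime := ⟨hP.prime⟩
  obtain ⟨z, hz, hzq⟩ := hP.exists_z hx
  obtain ⟨w, hw, hwq⟩ := hP.exists_z hy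
  have hmk : ∀ a : c.M, orderOf a = q → ∃ P : Sylow q c.M, (P : Subgroup c.M) = Subgroup.zpowers a := by
    intro a ha
    have hQ : IsPGroup q (Subgroup.zpowers a) := IsPGroup.of_card (n := 1) (by rw [Nat.card_zpowers, ha, pow_one])
    obtain ⟨P, hP'⟩ := hQ.exists_le_sylow
    refine ⟨P, (Subgroup.eq_of_le_of_card_ge hP' ?_).symm⟩
    obtain ⟨k, hk⟩ := IsPGroup.iff_card.1 P.isPGroup'
    rw [hk, Nat.card_zpowers, ha]
    have hk2 : k < 2 := by
      by_contra h2
      refine hP.not_sq_dvd_M hqp ?_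
      rw [← pow_two]
      exact (pow_dvd_pow q (by omega : 2 ≤ k)).trans (hk ▸ Subgroup.card_subgroup_dvd_card _)
    calc q ^ k ≤ q ^ 1 := Nat.pow_le_pow_right hP.prime.pos (by omega)
      _ = q := pow_one q
  obtain ⟨P, hPz⟩ := hmk ⟨z, hz.1⟩ (by rw [Subgroup.orderOf_mk, hzq])
  obtain ⟨Q, hQw⟩ := hmk ⟨w, hw.1⟩ (by rw [Subgroup.orderOf_mk, hwq])
  obtain ⟨m, hm⟩ := MulAction.exists_smul_eq c.M P Q
  refine ⟨m, m.2, ?_⟩
  have hwm : (⟨w, hw.1⟩ : c.M) ∈ ((m • P : Sylow q c.M) : Subgroup c.M) := by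
    rw [hm, hQw]; exact Subgroup.mem_zpowers _
  rw [Sylow.coe_subgroup_smul, hPz, Subgroup.mem_pointwise_smul_iff_inv_smul_mem] at hwm
  obtain ⟨i, hi⟩ := Subgroup.mem_zpowers_iff.1 hwm
  have hi' : (m : G) * z ^ i * (m : G)⁻¹ = w := by
    have h := congrArg (fun g : c.M => (m : G) * (g : G) * (m : G)⁻¹) hi
    simpa [MulAut.smul_def, mul_assoc] using h
  have h1 : (m : G) • x ≠ c.pt := fun h => hx
    (MulAction.injective (m : G) (h.trans (c.smul_pt_iff.2 m.2).symm))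
  refine hP.fix_two hy h1 hw hwq ?_
  rw [← hi', ← mul_smul, inv_mul_cancel_right, mul_smul,
    MulAction.mem_stabilizer_iff.1 (zpow_mem (MulAction.mem_stabilizer_iff.2 hz.2) i)]

theorem PointData.two_transitive (hqp : q ≠ p) : MulAction.IsMultiplyPretransitive G (G ⧸ c.M) 2 := by
  rw [MulAction.is_two_pretransitive_iff]
  intro a b a' b' hab hab'
  obtain ⟨g, hg⟩ := MulAction.exists_smul_eq G a c.pt
  obtain ⟨g', hg'⟩ := MulAction.exists_smul_eq G a' c.pt
  obtain ⟨m, hm, hmb⟩ := hP.transitive hqp (x := g • b) (y := g' • b')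
    (fun h => hab (MulAction.injective g (hg.trans h.symm))) (fun h => hab' (MulAction.injective g' (hg'.trans h.symm)))
  refine ⟨g'⁻¹ * m * g, ?_, ?_⟩
  · rw [mul_smul, mul_smul, hg, c.smul_pt_iff.2 hm, ← hg', inv_smul_smul]
  · rw [mul_smul, mul_smul, hmb, inv_smul_smul]

end

theorem faithful : FaithfulSMul G (G ⧸ c.M) := by
  refine ⟨fun {g h} hgh => inv_mul_eq_one.1 ?_⟩
  have hker : g⁻¹ * h ∈ c.M.normalCore := by
    rw [c.M.normalCore_eq_ker, MonoidHom.mem_ker]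
    refine Equiv.ext fun x => ?_
    show (g⁻¹ * h) • x = x
    rw [mul_smul, ← hgh x, inv_smul_smul]
  rcases (Subgroup.normalCore_normal c.M).eq_bot_or_eq_top with e | e
  · rwa [e, Subgroup.mem_bot] at hker
  · exact absurd (top_le_iff.1 (e ▸ c.M.normalCore_le)) c.se.1

theorem outcome_of_noFix (hoc : OC G) (hn : c.NoFix) (hW : c.W ≠ ⊥) : Outcome G := by
  classical
  haveI := Fintype.ofFinite (G ⧸ c.M)
  have hP := c.pointData_of_noFix hn
  have hqp := hP.q_ne_p hW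
  haveI := hP.two_transitive hqp
  obtain ⟨g₁, hg₁⟩ : ∃ g : G, g ∉ c.M := by
    by_contra h
    push Not at h
    exact c.se.1 ((Subgroup.eq_top_iff' _).2 h)
  have hx₁ : (QuotientGroup.mk g₁ : G ⧸ c.M) ≠ c.pt := fun h => hg₁ (by simpa [pt, QuotientGroup.eq] using h)
  obtain ⟨z, hz, hzq⟩ := hP.exists_z hx₁
  have hz1 : z ≠ 1 := fun h => hP.prime.one_lt.ne (by rw [← hzq, h, orderOf_one])
  have hzfix : z • c.pt = c.pt := c.smul_pt_iff.2 hz.1
  have hZ : Cfsg.IsZassenhausGroup G (G ⧸ c.M) := by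
    refine ⟨c.faithful, inferInstance, ?_, ⟨z, hz1, _, _, Ne.symm hx₁, hzfix, hz.2⟩, ?_⟩
    · intro g a b d hab hbd had ha hb hd
      obtain ⟨k, hk⟩ := MulAction.exists_smul_eq G a c.pt
      by_contra g1
      set g' := k * g * k⁻¹
      have hf : ∀ v : G ⧸ c.M, g • v = v → g' • (k • v) = k • v := fun v hv => by
        show (k * g * k⁻¹) • k • v = k • v
        rw [← mul_smul, inv_mul_cancel_right, mul_smul, hv]
      have hb' : k • b ≠ c.pt := fun h => hab (MulAction.injective k (hk.trans h.symm))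
      have hd' : k • d ≠ c.pt := fun h => had (MulAction.injective k (hk.trans h.symm))
      have hgM : g' ∈ c.M := c.smul_pt_iff.1 (hk ▸ hf a ha)
      have hgD : g' ∈ c.D (k • b) := ⟨hgM, hf b hb⟩
      have hgq : orderOf g' = Nat.card ↥(c.E : Subgroup G) - 1 := by
        have hdvd := Subgroup.orderOf_dvd_natCard _ hgD
        rw [c.actD_bijective_of_noFix hn hb'] at hdvd
        refine ((Nat.dvd_prime hP.prime).1 hdvd).resolve_left fun h => g1 ?_
        exact conj_eq_one_iff.1 (orderOf_eq_one_iff.1 h)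
      exact hbd (MulAction.injective k (hP.fix_two hb' hd' hgD hgq (hf d hd))).symm
    · intro N hN hNt
      refine ⟨c.pt, fun h => ?_⟩
      rcases hN.eq_bot_or_eq_top with e | e
      · obtain ⟨n, hn'⟩ := hNt.exists_smul_eq c.pt (QuotientGroup.mk g₁ : G ⧸ c.M)
        apply hx₁
        rw [← hn']
        show (n : G) • c.pt = c.pt
        rw [show (n : G) = 1 from (Subgroup.mem_bot).1 (e ▸ n.2), one_smul]
      · have hzN := (Subgroup.eq_bot_iff_forall _).1 h ⟨z, e ▸ Subgroup.mem_top z⟩ hzfix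
        exact hz1 (congrArg Subtype.val hzN)
  obtain ⟨a, b, hab⟩ := c.nonab
  rcases CfsgLib.SuzukiIdent.simple_zassenhaus hZ with ⟨F, _, _, ⟨e⟩⟩ | hS
  · exact psl_outcome_of_simple ⟨a, b, hab⟩ hoc e
  · exact suzuki_outcome hoc hS

end Ctx

end CfsgLib.OneComposite
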