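import Cfsg.Agent.Lib.OneComposite.Local
import Cfsg.Agent.Lib.OneComposite.Semi
import Cfsg.Agent.Lib.Hall.Existence
import Cfsg.Agent.Lib.Cores.PCore

/-!
The normaliser of the Sylow 2-subgroup and the group it induces on it.
-/

set_option autoImplicit false
set_option linter.style.haveILetI false

open Cfsg
open scoped Pointwise

namespace CfsgLib.OneComposite

namespace Ctx

variable {G : Type*} [Group G] [Finite G] {p : ℕ} (c : Ctx G p)

/-- The strongly embedded subgroup. -/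
def M : Subgroup G := Subgroup.normalizer ((c.E : Subgroup G) : Set G)

theorem E_le_M : (c.E : Subgroup G) ≤ c.M := Subgroup.le_normalizer

theorem mem_E_of_two_elt {i : G} (hi : i ∈ c.M) (ho : orderOf i = 2) : i ∈ (c.E : Subgroup G) := by
  haveI : Fact (Nat.Prime 2) := ⟨Nat.prime_two⟩
  have hp : IsPGroup 2 (Subgroup.zpowers i) := IsPGroup.of_card (n := 1) (by rw [Nat.card_zpowers, ho, pow_one])
  have hsup := (c.E.isPGroup'.to_sup_of_normal_left' hp ((Subgroup.zpowers_le).2 hi))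
  have := c.E.3 hsup le_sup_left
  exact this.le ((le_sup_right : Subgroup.zpowers i ≤ _) (Subgroup.mem_zpowers i))

/-- The conjugation action of `M` on `E`. -/
def act : c.M →* MulAut ↥(c.E : Subgroup G) where
  toFun n :=
    { toFun := fun e => ⟨(n : G) * e * (n : G)⁻¹, CoprimeAction.conj_mem n.2 e.2⟩
      invFun := fun e => ⟨(n : G)⁻¹ * e * (n : G), by
        simpa using CoprimeAction.conj_mem (g := (n : G)⁻¹) (inv_mem n.2) e.2⟩
      left_inv := fun e => Subtype.ext (show (n : G)⁻¹ * ((n : G) * e * (n : G)⁻¹) * n = e by group)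
      right_inv := fun e => Subtype.ext (show (n : G) * ((n : G)⁻¹ * e * n) * (n : G)⁻¹ = e by group)
      map_mul' := fun a b => Subtype.ext (show (n : G) * ((a : G) * b) * (n : G)⁻¹ =
        (n : G) * a * (n : G)⁻¹ * ((n : G) * b * (n : G)⁻¹) by group) }
  map_one' := MulEquiv.ext fun e => Subtype.ext (show (1 : G) * e * (1 : G)⁻¹ = e by simp)
  map_mul' m n := MulEquiv.ext fun e => Subtype.ext (show (m : G) * n * e * ((m : G) * n)⁻¹ =
      (m : G) * ((n : G) * e * (n : G)⁻¹) * (m : G)⁻¹ by group)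

theorem act_apply (n : c.M) (e : ↥(c.E : Subgroup G)) : ((c.act n e : _) : G) = (n : G) * e * (n : G)⁻¹ := rfl

theorem act_fix_iff (n : c.M) (e : ↥(c.E : Subgroup G)) : c.act n e = e ↔ (n : G) * e = e * n := by
  rw [Subtype.ext_iff, c.act_apply, mul_inv_eq_iff_eq_mul]

theorem act_eq_one_iff (n : c.M) : c.act n = 1 ↔ ∀ e ∈ (c.E : Subgroup G), (n : G) * e = e * n :=
  ⟨fun h e he => (c.act_fix_iff n ⟨e, he⟩).1 (by rw [h]; rfl),
    fun h => MulEquiv.ext fun e => (c.act_fix_iff n e).2 (h e e.2)⟩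

/-- The induced group of automorphisms. -/
def H : Subgroup (MulAut ↥(c.E : Subgroup G)) := c.act.range

theorem act_mem_H (n : c.M) : c.act n ∈ c.H := ⟨n, rfl⟩

theorem H_odd : Odd (Nat.card c.H) := by
  haveI : Fact (Nat.Prime 2) := ⟨Nat.prime_two⟩
  rw [← Nat.not_even_iff_odd, even_iff_two_dvd, show Nat.card c.H = c.act.ker.index from (Subgroup.index_ker c.act).symm]
  intro h
  have hle : (c.E : Subgroup G).subgroupOf c.M ≤ c.act.ker := fun n hn =>
    MonoidHom.mem_ker.2 ((c.act_eq_one_iff n).2 fun e he => c.comm hn he)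
  exact c.sylow_index (h.trans ((Subgroup.index_dvd_of_le hle).trans
    (Subgroup.relIndex_dvd_index_of_le (c.E_le_M))))

theorem H_solvable : Group.IsSolvable c.H := by
  haveI := mulAut_finite (A := ↥(c.E : Subgroup G))
  exact Cfsg.Agent.S0205.result (Nat.odd_iff.2 (Nat.odd_iff.1 c.H_odd))

/-- Nontrivial elements of `H` have prime order and lift to elements of that order. -/
theorem H_order {h : MulAut ↥(c.E : Subgroup G)} (hh : h ∈ c.H) (h1 : h ≠ 1) :
    (orderOf h).Prime ∧ orderOf h ≠ 2 ∧ ∃ n : c.M, c.act n = h ∧ orderOf (n : G) = orderOf h := by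
  obtain ⟨n, rfl⟩ := hh
  have hodd : Odd (orderOf (c.act n)) := c.H_odd.of_dvd_nat (Subgroup.orderOf_dvd_natCard _ (c.act_mem_H n))
  have hne2 : orderOf (c.act n) ≠ 2 := fun e => by rw [e] at hodd; exact absurd hodd (by decide)
  have hd : orderOf (c.act n) ∣ orderOf (n : G) := (Subgroup.orderOf_coe n).symm ▸ orderOf_map_dvd c.act n
  have hne1 : orderOf (c.act n) ≠ 1 := fun e => h1 (orderOf_eq_one_iff.1 e)
  rcases c.two.2.2 (n : G) with h | h | h
  · exact absurd (Nat.dvd_one.1 (h ▸ hd)) hne1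
  · have := ((Nat.dvd_prime h).1 hd).resolve_left hne1
    exact ⟨this ▸ h, hne2, n, rfl, this.symm⟩
  · rw [h] at hd
    have hp : orderOf (c.act n) ∣ p := (Nat.Coprime.dvd_of_dvd_mul_left (Nat.coprime_two_right.2 hodd) hd)
    have he := ((Nat.dvd_prime c.two.prime).1 hp).resolve_left hne1
    haveI : Fact p.Prime := ⟨c.two.prime⟩
    obtain ⟨k, hk⟩ : ∃ k, p + 1 = 2 * k := ⟨(p + 1) / 2, by
      have := Nat.odd_iff.1 c.two.odd; omega⟩
    have hact : c.act (n ^ (p + 1)) = c.act n := by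
      rw [map_pow, pow_succ, show c.act n ^ p = 1 from orderOf_dvd_iff_pow_eq_one.1 he.dvd, one_mul]
    refine ⟨by rw [he]; exact c.two.prime, hne2, n ^ (p + 1), hact, ?_⟩
    rw [he, SubmonoidClass.coe_pow]
    refine orderOf_eq_prime ?_ fun e => h1 ?_
    · rw [← pow_mul, hk, show 2 * k * p = orderOf (n : G) * k by rw [h]; ring, pow_mul, pow_orderOf_eq_one, one_pow]
    · rw [← hact, show n ^ (p + 1) = (1 : c.M) from Subtype.ext (by simpa using e), map_one]

/-- Commuting elements of `H` have the same order. -/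
theorem H_commute {h k : MulAut ↥(c.E : Subgroup G)} (hh : h ∈ c.H) (hk : k ∈ c.H) (h1 : h ≠ 1) (k1 : k ≠ 1)
    (hc : h * k = k * h) : orderOf h = orderOf k := by
  by_contra hne
  have hp := (c.H_order hh h1).1
  have kp := (c.H_order hk k1).1
  have hco := (Nat.coprime_primes hp kp).2 hne
  have ho := (show Commute h k from hc).orderOf_mul_eq_mul_orderOf_of_coprime hco
  by_cases he : h * k = 1
  · rw [he, orderOf_one] at ho
    exact hp.one_lt.ne' (Nat.eq_one_of_mul_eq_one_right ho.symm)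
  · exact absurd (ho ▸ (c.H_order (mul_mem hh hk) he).1) (Nat.not_prime_mul hp.one_lt.ne' kp.one_lt.ne')

/-- An element of `H` with a fixed point has order `p`. -/
theorem H_order_fix {h : MulAut ↥(c.E : Subgroup G)} (hh : h ∈ c.H) (h1 : h ≠ 1) {e : ↥(c.E : Subgroup G)}
    (he : h e = e) (e1 : e ≠ 1) : orderOf h = p := by
  obtain ⟨hp, hp2, n, rfl, hn⟩ := c.H_order hh h1
  rcases c.two.order_of_commute_involution (a := (n : G)) (hn ▸ hp)
    (c.order_two e.2 fun x => e1 (Subtype.ext x)) ((c.act_fix_iff n e).1 he) with h | h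
  · exact absurd (hn.symm.trans h) hp2
  · exact hn.symm.trans h

theorem isPGroup_E_card : ∃ r, 3 ≤ r ∧ Nat.card ↥(c.E : Subgroup G) = 2 ^ r := by
  haveI : Fact (Nat.Prime 2) := ⟨Nat.prime_two⟩
  obtain ⟨r, hr⟩ := IsPGroup.iff_card.1 c.E.isPGroup'
  refine ⟨r, ?_, hr⟩
  by_contra h
  have : 2 ^ r ≤ 2 ^ 2 := Nat.pow_le_pow_right (by norm_num) (by omega)
  have := c.rank
  omega

theorem E_comm (a b : ↥(c.E : Subgroup G)) : a * b = b * a := Subtype.ext (c.comm a.2 b.2)

theorem E_coprime {l : ℕ} (hl : l.Prime) (hl2 : l ≠ 2) : (Nat.card ↥(c.E : Subgroup G)).Coprime l := by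
  obtain ⟨r, -, hr⟩ := c.isPGroup_E_card
  rw [hr]
  exact Nat.Coprime.pow_left _ ((Nat.coprime_primes Nat.prime_two hl).2 (Ne.symm hl2))

variable [IsSimpleGroup G]

theorem W_le_centralizer : c.W ≤ Subgroup.centralizer ((c.E : Subgroup G) : Set G) := fun _ hw =>
  Subgroup.mem_centralizer_iff.2 fun _ he => c.W_comm_E he hw

theorem M0_eq : c.M0 = c.M :=
  sup_eq_right.2 (c.W_le_centralizer.trans (Subgroup.centralizer_le_normalizer _))

theorem se : IsStronglyEmbedded c.M := c.M0_eq ▸ c.M0_stronglyEmbedded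

theorem centralizer_le_M {a : G} (ha : a ∈ (c.E : Subgroup G)) (ha1 : a ≠ 1) :
    Subgroup.centralizer ({a} : Set G) ≤ c.M := c.M0_eq ▸ c.centralizer_le_M0 ha ha1

theorem solvable_le_M {X : Subgroup G} (hX : Group.IsSolvable X) (hEX : (c.E : Subgroup G) ≤ X) : X ≤ c.M :=
  c.solvable_le hX hEX inf_le_right fun _ ha ha1 => inf_le_right.trans (c.centralizer_le_M ha ha1)

theorem centralizer_le_M_of_odd {w : G} (hw : Odd (orderOf w)) (hw1 : w ≠ 1)
    (hc : ∀ e ∈ (c.E : Subgroup G), w * e = e * w) : Subgroup.centralizer ({w} : Set G) ≤ c.M := by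
  obtain ⟨e, he, he1⟩ := c.exists_ne_one
  have hp := c.two.order_of_commute_involution (c.two.prime_of_odd hw hw1) (c.order_two he he1) (hc e he)
  exact c.solvable_le_M (c.two.solvable_centralizer hp)
    fun x hx => Subgroup.mem_centralizer_singleton_iff.2 (hc x hx).symm

/-- Odd elements centralising `E` lie in `W`. -/
theorem mem_W_of_odd {w : G} (hw : Odd (orderOf w)) (hc : ∀ e ∈ (c.E : Subgroup G), w * e = e * w) : w ∈ c.W := by
  haveI : Fact (Nat.Prime 2) := ⟨Nat.prime_two⟩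
  obtain ⟨a, ha, ha1⟩ := c.exists_ne_one
  set C := Subgroup.centralizer ({a} : Set G) with hC
  haveI := c.two.solvable_centralizer (Or.inl (c.order_two ha ha1))
  have hEC : (c.E : Subgroup G) ≤ C := fun e he => Subgroup.mem_centralizer_singleton_iff.2 (c.comm he ha)
  set P := c.E.subtype hEC
  have hwC : w ∈ C := Subgroup.mem_centralizer_singleton_iff.2 (hc a ha)
  have hcw : (⟨w, hwC⟩ : C) ∈ pPrimeCore 2 C ⊔ (P : Subgroup C) := by
    -- modulo the odd core `E` is its own centraliser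
    set f := QuotientGroup.mk' (pPrimeCore 2 C)
    have hsurj : Function.Surjective f := QuotientGroup.mk'_surjective _
    haveI : Group.IsSolvable (C ⧸ pPrimeCore 2 C) := Group.isSolvable_of_surjective hsurj
    have hmem : f ⟨w, hwC⟩ ∈ Subgroup.centralizer ((pCore 2 (C ⧸ pPrimeCore 2 C) : Subgroup _) : Set (C ⧸ pPrimeCore 2 C)) := by
      rw [Subgroup.mem_centralizer_iff]
      intro z hz
      have hz' := CfsgLib.Cores.pCore_le_sylow (P.mapSurjective hsurj) hz
      rw [Sylow.coe_mapSurjective] at hz'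
      obtain ⟨b, hb, rfl⟩ := hz'
      rw [← map_mul, ← map_mul]
      exact congrArg f (Subtype.ext (hc _ hb).symm)
    have h2 := CfsgLib.Cores.pCore_le_sylow (P.mapSurjective hsurj)
      (BGUniqueness.centralizer_pCore_le (Cores.pPrimeCore_quotient_pPrimeCore 2) hmem)
    rw [Sylow.coe_mapSurjective] at h2
    obtain ⟨b, hb, hbw⟩ := h2
    have := QuotientGroup.eq.1 hbw
    rw [show (⟨w, hwC⟩ : C) = b * (b⁻¹ * ⟨w, hwC⟩) by group]
    exact mul_mem ((le_sup_right : (P : Subgroup C) ≤ _) hb) ((le_sup_left : pPrimeCore 2 C ≤ _) this)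
  -- the odd order kills the component in `E`
  have hn : (pPrimeCore 2 C).Normal := inferInstance
  set f := QuotientGroup.mk' (pPrimeCore 2 C)
  have hf : f ⟨w, hwC⟩ ∈ (P : Subgroup C).map f := by
    have := Subgroup.mem_map_of_mem f hcw
    rw [Subgroup.map_sup] at this
    rwa [show (pPrimeCore 2 C).map f = ⊥ from (Subgroup.map_eq_bot_iff _).2 (by rw [QuotientGroup.ker_mk']), bot_sup_eq] at this
  obtain ⟨k, hk⟩ := IsPGroup.iff_orderOf.1 (P.isPGroup'.map f) ⟨_, hf⟩
  rw [Subgroup.orderOf_mk] at hk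
  have hd : orderOf (f ⟨w, hwC⟩) ∣ orderOf w :=
    (Subgroup.orderOf_mk w hwC) ▸ orderOf_map_dvd f (⟨w, hwC⟩ : C)
  rw [hk] at hd
  have hk0 : k = 0 := by
    by_contra h0
    exact (Nat.not_even_iff_odd.2 hw) (even_iff_two_dvd.2 ((dvd_pow_self 2 h0).trans hd))
  rw [hk0, pow_zero, orderOf_eq_one_iff, QuotientGroup.mk'_apply, QuotientGroup.eq_one_iff] at hk
  exact c.th_le_W ha ha1 ⟨⟨w, hwC⟩, hk, rfl⟩

theorem H_transitive {e e' : ↥(c.E : Subgroup G)} (h1 : e ≠ 1) (h1' : e' ≠ 1) : ∃ h ∈ c.H, h e = e' := by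
  obtain ⟨n, hn, h⟩ := c.N_transitive e.2 (fun x => h1 (Subtype.ext x)) e'.2 (fun x => h1' (Subtype.ext x))
  exact ⟨c.act ⟨n, hn⟩, c.act_mem_H _, Subtype.ext h⟩

/-- The number of involutions of `E` times a stabiliser is the order of `H`. -/
theorem card_H {e : ↥(c.E : Subgroup G)} (h1 : e ≠ 1) :
    (Nat.card ↥(c.E : Subgroup G) - 1) * Nat.card (MulAction.stabilizer c.H e) = Nat.card c.H := by
  haveI := mulAut_finite (A := ↥(c.E : Subgroup G))
  rw [← Subgroup.index_mul_card (MulAction.stabilizer c.H e), MulAction.index_stabilizer]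
  congr 1
  have : MulAction.orbit c.H e = {(1 : ↥(c.E : Subgroup G))}ᶜ := by
    ext x
    constructor
    · rintro ⟨h, rfl⟩ hx
      refine h1 ((h : MulAut _).injective ?_)
      rw [map_one]; exact hx
    · intro hx
      obtain ⟨h, hh, he⟩ := c.H_transitive h1 hx
      exact ⟨⟨h, hh⟩, he⟩
  rw [this, Set.ncard_compl, Set.ncard_singleton]

end Ctx

end CfsgLib.OneComposite
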